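import Mathlib

/-!
Collection of words in a central extension of a two group, recording the used constants.
-/

set_option autoImplicit false

namespace Cfsg.Agent.H10.M22Mult

variable {Γ : Type} [Group Γ]

/-- One collection step: a square or an inversion is rewritten. -/
def cStep (rel : ℕ → ℕ → List ℕ) (idx : ℕ → ℕ → ℕ) : List ℕ → Option (List ℕ × List ℕ)
  | [] => none
  | [_] => none
  | a :: b :: t =>
    if b ≤ a then some ((if a = b then [] else [b]) ++ rel a b ++ t, [idx a b])
    else (cStep rel idx (b :: t)).map fun r => (a :: r.1, r.2)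

/-- Collection with fuel: the word and the list of constants used. -/
def cColl (rel : ℕ → ℕ → List ℕ) (idx : ℕ → ℕ → ℕ) : ℕ → List ℕ → List ℕ × List ℕ
  | 0, w => (w, [])
  | f + 1, w =>
    match cStep rel idx w with
    | none => (w, [])
    | some r => ((cColl rel idx f r.1).1, r.2 ++ (cColl rel idx f r.1).2)

/-- The value of a word. -/
def wval (e : ℕ → Γ) (w : List ℕ) : Γ := (w.map e).prod

/-- The central value of a list of constants. -/
def cval (c : ℕ → Subgroup.center Γ) (l : List ℕ) : Γ := ((l.map c).prod : Subgroup.center Γ)

variable {rel : ℕ → ℕ → List ℕ} {idx : ℕ → ℕ → ℕ} {e : ℕ → Γ} {c : ℕ → Subgroup.center Γ}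

theorem cval_nil : cval c [] = 1 := by simp [cval]

theorem cval_append (l l' : List ℕ) : cval c (l ++ l') = cval c l * cval c l' := by simp [cval]

theorem cval_comm (l : List ℕ) (x : Γ) : cval c l * x = x * cval c l :=
  ((Subgroup.mem_center_iff.1 ((l.map c).prod).2) x).symm

theorem wval_nil : wval e [] = 1 := rfl

theorem wval_cons (a : ℕ) (w : List ℕ) : wval e (a :: w) = e a * wval e w := by simp [wval]

theorem wval_append (v w : List ℕ) : wval e (v ++ w) = wval e v * wval e w := by simp [wval]

theorem wval_step (hrel : ∀ a b, b ≤ a → e a * e b =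
      (if a = b then 1 else e b) * wval e (rel a b) * (c (idx a b) : Γ)) :
    ∀ {w : List ℕ} {r : List ℕ × List ℕ}, cStep rel idx w = some r →
      wval e w = wval e r.1 * cval c r.2
  | [], _, h => by simp [cStep] at h
  | [_], _, h => by simp [cStep] at h
  | a :: b :: t, r, h => by
    rw [cStep] at h
    split_ifs at h with h1 h2
    · obtain rfl := Option.some.inj h
      rw [wval_cons, wval_cons, ← mul_assoc, hrel a b h1, if_pos h2, one_mul, List.nil_append,
        wval_append, mul_assoc, mul_assoc]
      congr 1
      simpa [cval] using cval_comm (c := c) [idx a b] (wval e t)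
    · obtain rfl := Option.some.inj h
      rw [wval_cons, wval_cons, ← mul_assoc, hrel a b h1, if_neg h2, wval_append, wval_append,
        mul_assoc _ _ (wval e t), mul_assoc _ _ (cval c _)]
      refine congrArg₂ (· * ·) (by simp [wval]) ?_
      simpa [cval] using cval_comm (c := c) [idx a b] (wval e t)
    · obtain ⟨r', hr', rfl⟩ := Option.map_eq_some_iff.1 h
      rw [wval_cons, wval_step hrel hr', wval_cons, mul_assoc]

theorem wval_coll (hrel : ∀ a b, b ≤ a → e a * e b =
      (if a = b then 1 else e b) * wval e (rel a b) * (c (idx a b) : Γ)) :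
    ∀ (f : ℕ) (w : List ℕ),
      wval e w = wval e (cColl rel idx f w).1 * cval c (cColl rel idx f w).2
  | 0, w => by simp [cColl, cval_nil]
  | f + 1, w => by
    rw [cColl]
    cases hs : cStep rel idx w with
    | none => simp [cval_nil]
    | some r =>
      simp only
      rw [wval_step hrel hs, wval_coll hrel f r.1, cval_append, mul_assoc,
        cval_comm r.2 (cval c _)]

end Cfsg.Agent.H10.M22Mult
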