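import Cfsg.Agent.H10.M22Mult.Mono
import Cfsg.Agent.H13.Groups
import Cfsg.Prelude.Def_KGroupFacts

/-!
From a certified monomial extension to a stem extension of M22.
-/

set_option autoImplicit false

namespace Cfsg.Agent.H10.M22Mult

open Cfsg Cfsg.Agent.H13 Cfsg.Agent.H13.Data
open scoped commutatorElement

variable {N m : ℕ} [NeZero N] [NeZero m]

/-- The image list of a packed element. -/
def imgP (l : List PK) : List ℕ := (List.range 24).map (evalP l)

theorem img_prod {xs : List (MX N m)} {l : List PK} (h : List.Forall₂ Rep xs l) :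
    img xs.prod.1 = imgP l := by
  refine List.ext_getElem (by simp [img, imgP]) fun i h1 h2 => ?_
  simp only [img, imgP, List.getElem_ofFn, List.getElem_map, List.getElem_range,
    (prod_apply h).1, chainP_val]

/-- Scalars as a homomorphism. -/
def scalHom : Multiplicative (ZMod m) →* MX N m where
  toFun c := (1, scal c.toAdd)
  map_one' := by simp [scal_zero, Prod.mk_one_one]
  map_mul' a b := Prod.ext (by simp) (Equiv.ext fun p => by
    show scal _ p = scal _ (scal _ p)
    simp only [scal_apply, toAdd_mul]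
    exact Prod.ext rfl (by ring))

omit [NeZero m] in
theorem scalHom_injective : Function.Injective (scalHom (N := N) (m := m)) := fun a b h => by
  have := congrArg (fun x : MX N m => (x.2 (0, (0 : ZMod m))).2) h
  simpa [scalHom, scal_apply] using this

theorem orderOf_scalX (gc : ℕ) : orderOf (scalX N m gc) = addOrderOf (gc : ZMod m) := by
  rw [← orderOf_ofAdd_eq_addOrderOf,
    ← orderOf_injective (scalHom (N := N) (m := m)) scalHom_injective]
  rfl

variable (N m) in
/-- The digits of a product of transversal elements with a scalar. -/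
def digitList (L : List MLevel) (d : List ℕ) : List PK :=
  (List.range L.length).map fun j => (L.getD j noLevel).trans.getD (d.getD j 0) noPK

variable (N m) in
/-- The checks of the extension part of a certificate. -/
def extOK (L : List MLevel) (inv : List PK) (lifts : List (List ℕ)) (X Xi Y Yi : PK)
    (xd yd : List ℕ × ℕ) (gc k v : ℕ) : Bool :=
  decide (inv.length = (L.getD 0 noLevel).gens.length) &&
  (List.range (L.getD 0 noLevel).gens.length).all (fun q =>
    sameB N m [(L.getD 0 noLevel).gens.getD q noPK, inv.getD q noPK] [] 0 &&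
    sameB N m [inv.getD q noPK, (L.getD 0 noLevel).gens.getD q noPK] [] 0 &&
    sift 24 (chain 24 m22Levels g22) (imgP [(L.getD 0 noLevel).gens.getD q noPK])) &&
  decide (lifts.length = g22.length) &&
  (List.range g22.length).all (fun q =>
    (List.range L.length).all (fun j =>
      decide ((lifts.getD q []).getD j 0 < (L.getD j noLevel).trans.length)) &&
    (imgP (digitList L (lifts.getD q [])) == (g22.getD q (oneP 24)).1)) &&
  (List.range L.length).all (fun j => decide (xd.1.getD j 0 < (L.getD j noLevel).trans.length) &&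
    decide (yd.1.getD j 0 < (L.getD j noLevel).trans.length)) &&
  (xd.2 % gc == 0) && (yd.2 % gc == 0) &&
  sameB N m [X] (digitList L xd.1) xd.2 && sameB N m [Y] (digitList L yd.1) yd.2 &&
  sameB N m [X, Xi] [] 0 && sameB N m [Y, Yi] [] 0 &&
  sameB N m ((List.replicate k [X, Y, Xi, Yi]).flatten) [] v

theorem exists_stem_of_cert {L : List MLevel} {inv : List PK} {lifts : List (List ℕ)}
    {X Xi Y Yi : PK} {xd yd : List ℕ × ℕ} {gc k v : ℕ} (e : ℕ)
    (hcheck : ∀ i < L.length, levelOK N m gc L i = true)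
    (hext : extOK N m L inv lifts X Xi Y Yi xd yd gc k v = true)
    (he : ((v * e : ℕ) : ZMod m) = (gc : ZMod m)) :
    ∃ (Γ : Type) (_ : Group Γ) (_ : Finite Γ) (σ : Γ →* Spor.M22),
      Cfsg.IsStemExtension σ ∧ IsCyclic σ.ker ∧ Nat.card σ.ker = addOrderOf (gc : ZMod m) := by
  simp only [extOK, Bool.and_eq_true, List.all_eq_true, List.mem_range, decide_eq_true_eq,
    beq_iff_eq] at hext
  obtain ⟨⟨⟨⟨⟨⟨⟨⟨⟨⟨⟨hil, hgen⟩, hll⟩, hlift⟩, hxy⟩, hxc⟩, hyc⟩, hX⟩, hY⟩, hXi⟩, hYi⟩, hcomm⟩ := hext
  let Γ := lvlGroup N m gc L 0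
  have hG : GenOK (N := N) (m := m) gc L 0 := by
    intro A hA
    obtain ⟨q, hq, rfl⟩ := List.getElem_of_mem hA
    obtain ⟨⟨h1, h2⟩, -⟩ := hgen q hq
    rw [List.getD_eq_getElem?_getD (l := (L.getD 0 noLevel).gens), List.getElem?_eq_getElem hq,
      Option.getD_some] at h1 h2
    obtain ⟨x, hx, -⟩ := exists_rep h1 h2
    exact ⟨x, Subgroup.subset_closure (Or.inl ⟨_, List.getElem_mem hq, hx⟩), hx⟩
  have hdig : ∀ d : List ℕ, (∀ j < L.length, d.getD j 0 < (L.getD j noLevel).trans.length) →
      ∃ xs : List (MX N m), List.Forall₂ Rep xs (digitList L d) ∧ xs.prod ∈ Γ := by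
    intro d hd
    obtain ⟨xs, h1, h2⟩ := forall₂_map (P := fun z => z ∈ Γ)
      (f := fun j => (L.getD j noLevel).trans.getD (d.getD j 0) noPK) (js := List.range L.length)
      fun j hj => by
        rw [List.mem_range] at hj
        obtain ⟨z, hz, hzr⟩ := trans_mem (hcheck j hj) (genOK_all hcheck hG j hj.le) _ (hd j hj)
        refine ⟨z, ?_, hzr⟩
        have := lvlGroup_anti hcheck hG (i := 0) (k := j) (by omega)
        rw [Nat.zero_add] at this
        exact this hz
    exact ⟨xs, h1, Subgroup.list_prod_mem _ h2⟩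
  -- the projection
  let f₀ : MX N m →* Equiv.Perm GolayPt :=
    (toFin.symm : Equiv.Perm (Fin 24) →* Equiv.Perm GolayPt).comp (MonoidHom.fst _ _)
  have hf₀ : ∀ x, toFin (f₀ x) = x.1 := fun x => toFin.apply_symm_apply _
  have hle : Γ ≤ Spor.M22.comap f₀ := by
    refine (Subgroup.closure_le _).2 ?_
    rintro x (⟨A, hA, hx⟩ | rfl)
    · obtain ⟨q, hq, rfl⟩ := List.getElem_of_mem hA
      have h3 := (hgen q hq).2
      rw [List.getD_eq_getElem?_getD (l := (L.getD 0 noLevel).gens), List.getElem?_eq_getElem hq,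
        Option.getD_some, ← img_prod (List.Forall₂.cons hx List.Forall₂.nil), List.prod_singleton,
        ← hf₀] at h3
      show f₀ x ∈ Spor.M22
      rw [M22_eq]
      exact mem_grp_of_sift m22Levels g22_valid m22_check _ h3
    · show f₀ (scalX N m gc) ∈ Spor.M22
      rw [show f₀ (scalX N m gc) = 1 from map_one toFin.symm]
      exact one_mem _
  let σ : Γ →* Spor.M22 := (f₀.comp Γ.subtype).codRestrict Spor.M22 fun x => hle x.2
  have hsurj : Function.Surjective σ := by
    intro g
    have hmem : (g : Equiv.Perm GolayPt) ∈ Γ.map f₀ := by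
      have hg : (g : Equiv.Perm GolayPt) ∈ grp g22 := M22_eq ▸ g.2
      refine grp_le g22_valid (fun a ha h hh => ?_) hg
      obtain ⟨q, hq, rfl⟩ := List.getElem_of_mem ha
      obtain ⟨hd, himg⟩ := hlift q hq
      rw [List.getD_eq_getElem?_getD (l := g22), List.getElem?_eq_getElem hq, Option.getD_some]
        at himg
      obtain ⟨xs, hxs, hxm⟩ := hdig _ hd
      refine ⟨xs.prod, hxm, toFin.injective (img_injective ?_)⟩
      rw [hf₀, img_prod hxs, himg, hh]
    obtain ⟨x, hx, hxe⟩ := hmem
    exact ⟨⟨x, hx⟩, Subtype.ext hxe⟩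
  let sc : Γ := ⟨scalX N m gc, scalX_mem gc L 0⟩
  have hker : σ.ker = Subgroup.zpowers sc := by
    refine le_antisymm (fun x hx => ?_) ((Subgroup.zpowers_le).2 ?_)
    · have h1 : (x : MX N m).1 = 1 := by
        rw [← hf₀, show f₀ (x : MX N m) = 1 from congrArg Subtype.val hx, map_one]
      obtain ⟨n, hn⟩ := kernel_scal hcheck hG x.2 h1
      exact ⟨n, Subtype.ext (by rw [Subgroup.coe_zpow]; exact hn)⟩
    · rw [MonoidHom.mem_ker]
      exact Subtype.ext (show f₀ (scalX N m gc) = 1 from map_one toFin.symm)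
  have hcomm' : ∀ (c : ZMod m) (x : MX N m), x ∈ Γ → x * (1, scal c) = (1, scal c) * x := by
    intro c x hx
    have : Γ ≤ Subgroup.centralizer {((1, scal c) : MX N m)} := by
      refine (Subgroup.closure_le _).2 ?_
      rintro z (⟨A, -, hz⟩ | rfl) <;> rw [SetLike.mem_coe, Subgroup.mem_centralizer_singleton_iff]
      · refine Prod.ext (by simp) (Equiv.ext fun p => ?_)
        show z.2 (scal _ p) = scal _ (z.2 p)
        rw [scal_apply, scal_apply, hz.2, hz.2]
        simp [monoF, add_assoc]
      · refine Prod.ext (by simp [scalX]) (Equiv.ext fun p => ?_)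
        show scal _ (scal _ p) = scal _ (scal _ p)
        simp only [scal_apply, add_right_comm]
    exact Subgroup.mem_centralizer_singleton_iff.1 (this hx)
  refine ⟨Γ, inferInstance, inferInstance, σ, ⟨hsurj, ?_, ?_⟩, ?_, ?_⟩
  · rw [hker, Subgroup.zpowers_le, Subgroup.mem_center_iff]
    exact fun y => Subtype.ext (hcomm' _ _ y.2)
  · rw [hker, Subgroup.zpowers_le]
    obtain ⟨xs, hxs, hxm⟩ := hdig xd.1 fun j hj => (hxy j hj).1
    obtain ⟨ys, hys, hym⟩ := hdig yd.1 fun j hj => (hxy j hj).2
    obtain ⟨u, hu⟩ : ∃ u, u = ((1, scal (xd.2 : ZMod m)) : MX N m) * xs.prod := ⟨_, rfl⟩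
    obtain ⟨w, hw⟩ : ∃ w, w = ((1, scal (yd.2 : ZMod m)) : MX N m) * ys.prod := ⟨_, rfl⟩
    have hum : u ∈ Γ := hu ▸ mul_mem (scal_mem hxc L 0) hxm
    have hwm : w ∈ Γ := hw ▸ mul_mem (scal_mem hyc L 0) hym
    have rep1 : ∀ {z : MX N m} {A : PK} {zs : List (MX N m)} {l : List PK} {c : ℕ},
        List.Forall₂ Rep zs l → z = (1, scal (c : ZMod m)) * zs.prod → sameB N m [A] l c = true →
        Rep z A := by
      intro z A zs l c hz hze hs
      obtain ⟨a1, a2⟩ := sameB_spec (N := N) (m := m) hs
      subst hze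
      refine ⟨fun j => ?_, fun p => ?_⟩
      · rw [show pointF A j = chainP [A] j from rfl, a1, ← (prod_apply hz).1]; rfl
      · rw [show monoF A p = chainF [A] p from rfl, a2, ← (prod_apply hz).2]; rfl
    have repI : ∀ {z : MX N m} {A B : PK}, Rep z A → sameB N m [A, B] [] 0 = true → Rep z⁻¹ B := by
      intro z A B hz hs
      obtain ⟨a1, a2⟩ := sameB_spec (N := N) (m := m) hs
      simp only [Nat.cast_zero, scal_zero] at a2
      refine ⟨fun j => ?_, fun p => ?_⟩
      · rw [Prod.fst_inv, Equiv.Perm.inv_def, Equiv.symm_apply_eq, hz.1]; exact (a1 j).symm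
      · rw [Prod.snd_inv, Equiv.Perm.inv_def, Equiv.symm_apply_eq, hz.2]; exact (a2 p).symm
    have ru := rep1 hxs hu hX
    have rw' := rep1 hys hw hY
    have hrep : ∀ q : ℕ, List.Forall₂ Rep ((List.replicate q [u, w, u⁻¹, w⁻¹]).flatten)
        ((List.replicate q [X, Y, Xi, Yi]).flatten) := by
      intro q
      induction q with
      | zero => exact .nil
      | succ q ih =>
        exact .cons ru (.cons rw' (.cons (repI ru hXi) (.cons (repI rw' hYi) ih)))
    have hprod : ∀ q : ℕ, ((List.replicate q [u, w, u⁻¹, w⁻¹]).flatten).prod = ⁅u, w⁆ ^ q := by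
      intro q
      induction q with
      | zero => rfl
      | succ q ih =>
        rw [List.replicate_succ, List.flatten_cons, List.prod_append, ih, pow_succ']
        simp [commutatorElement_def, mul_assoc]
    have hfin := prod_eq_of_same (N := N) (m := m) (hrep k) List.Forall₂.nil hcomm
    rw [hprod, List.prod_nil, mul_one] at hfin
    have hsc : sc = (⁅(⟨u, hum⟩ : Γ), ⟨w, hwm⟩⁆ ^ k) ^ e := by
      refine Subtype.ext ?_
      show scalX N m gc = (⁅u, w⁆ ^ k) ^ e
      rw [hfin, scalX, ← he, show ((1, scal (v : ZMod m)) : MX N m) =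
        scalHom (Multiplicative.ofAdd (v : ZMod m)) from rfl, ← map_pow, ← ofAdd_nsmul,
        nsmul_eq_mul, Nat.cast_mul, mul_comm]
      rfl
    rw [hsc]
    exact pow_mem (pow_mem (Subgroup.commutator_mem_commutator (Subgroup.mem_top _)
      (Subgroup.mem_top _)) _) _
  · rw [hker]; infer_instance
  · rw [hker, Nat.card_zpowers, ← Subgroup.orderOf_coe, orderOf_scalX]

end Cfsg.Agent.H10.M22Mult
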