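import Cfsg.Agent.H10.M22Mult.Cover
import Cfsg.Agent.H10.M22Mult.FourData

/-!
The extension of M22 with kernel of order 4.
-/

set_option autoImplicit false

namespace Cfsg.Agent.H10.M22Mult.Four

set_option maxHeartbeats 4000000 in
theorem check0 : levelOK 616 8 2 levels 0 = true := by decide +kernel

set_option maxHeartbeats 4000000 in
theorem check1 : levelOK 616 8 2 levels 1 = true := by decide +kernel

set_option maxHeartbeats 4000000 in
theorem check2 : levelOK 616 8 2 levels 2 = true := by decide +kernel

set_option maxHeartbeats 4000000 in
theorem check3 : levelOK 616 8 2 levels 3 = true := by decide +kernel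

set_option maxHeartbeats 4000000 in
theorem check4 : levelOK 616 8 2 levels 4 = true := by decide +kernel

set_option maxHeartbeats 4000000 in
theorem ext_check : extOK 616 8 levels genInv lifts wX wXI wY wYI xd yd 2 3 6 = true := by
  decide +kernel

/-- A stem extension with cyclic kernel of order 4. -/
theorem exists_stem :
    ∃ (Γ : Type) (_ : Group Γ) (_ : Finite Γ) (σ : Γ →* Spor.M22),
      Cfsg.IsStemExtension σ ∧ IsCyclic σ.ker ∧ Nat.card σ.ker = 4 := by
  have hl : ∀ i < levels.length, levelOK 616 8 2 levels i = true := by
    intro i hi
    simp only [levels, List.length_cons, List.length_nil] at hi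
    interval_cases i
    exacts [check0, check1, check2, check3, check4]
  have ho : addOrderOf ((2 : ℕ) : ZMod 8) = 4 := by
    refine (addOrderOf_eq_iff (by norm_num)).2 ⟨by decide, fun j hj hj0 => ?_⟩
    interval_cases j <;> decide
  have h := exists_stem_of_cert (N := 616) (m := 8) 3 hl ext_check (by decide)
  rw [ho] at h
  exact h

end Cfsg.Agent.H10.M22Mult.Four
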