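import Cfsg.Agent.H10.M22Mult.TwoBound
import Cfsg.Agent.H10.M22Mult.Three
import Cfsg.Agent.H10.M22Mult.Four
import Cfsg.Agent.H10.StemCriteria
import Cfsg.Agent.H82.Mult

/-!
The Schur multiplier of M22 is cyclic of order twelve.
-/

set_option autoImplicit false

namespace Cfsg.Agent.H10.M22Mult

open Cfsg Cfsg.Agent.H13 Cfsg.Agent.H13.Data TwoData
open scoped commutatorElement Pointwise

/-- A bound on the `p`-part of the kernel from a Sylow subgroup. -/
theorem factorization_ker_le {Γ G : Type*} [Group Γ] [Group G] [Finite Γ] {p : ℕ} [hp : Fact p.Prime]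
    {σ : Γ →* G} (hσ : Cfsg.IsStemExtension σ) {k : ℕ} (P : Sylow p Γ)
    (h : Nat.card (σ.ker ⊓ ⁅(P : Subgroup Γ), (P : Subgroup Γ)⁆ : Subgroup Γ) ∣ p ^ k) :
    (Nat.card σ.ker).factorization p ≤ k := by
  obtain ⟨R⟩ : Nonempty (Sylow p σ.ker) := Sylow.nonempty
  have hle : (R : Subgroup σ.ker).map σ.ker.subtype ≤
      σ.ker ⊓ ⁅(P : Subgroup Γ), (P : Subgroup Γ)⁆ := by
    rintro _ ⟨z, hz, rfl⟩
    have hzc : (z : Γ) ∈ Subgroup.center Γ := hσ.2.1 z.2
    have hpz : IsPGroup p (Subgroup.zpowers (z : Γ)) := by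
      refine (R.isPGroup'.map σ.ker.subtype).to_le ?_
      rw [Subgroup.zpowers_le]
      exact ⟨z, hz, rfl⟩
    obtain ⟨Q, hQ⟩ := hpz.exists_le_sylow
    obtain ⟨g, hg⟩ := MulAction.exists_smul_eq Γ Q P
    have hzP : (z : Γ) ∈ P := by
      have : MulAut.conj g • (z : Γ) ∈ MulAut.conj g • (Q : Subgroup Γ) :=
        Subgroup.smul_mem_pointwise_smul (z : Γ) (MulAut.conj g) _ (hQ (Subgroup.mem_zpowers _))
      rw [MulAut.smul_def, MulAut.conj_apply, Subgroup.mem_center_iff.mp hzc g,
        mul_inv_cancel_right] at this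
      rw [← hg]
      exact this
    exact ⟨z.2, H64.mem_commutator_sylow_of_central P hzc (hσ.2.2 z.2) hzP⟩
  have h2 := (Subgroup.card_dvd_of_le hle).trans h
  rw [Subgroup.card_map_of_injective σ.ker.subtype_injective, Sylow.card_eq_multiplicity] at h2
  exact (Nat.pow_dvd_pow_iff_le_right hp.out.one_lt).1 h2

/-- The three part of the kernel has order dividing three. -/
theorem three_part_dvd {Γ : Type} [Group Γ] [Finite Γ] {σ : Γ →* grp g22}
    (hσ : Cfsg.IsStemExtension σ) [Fact (Nat.Prime 3)] :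
    ∃ P : Sylow 3 Γ, Nat.card (σ.ker ⊓ ⁅(P : Subgroup Γ), (P : Subgroup Γ)⁆ : Subgroup Γ) ∣ 3 := by
  classical
  haveI : Finite (grp g22) := Nat.finite_of_card_ne_zero (by rw [card_g22]; decide)
  have hv : threeElems.all (validB 24) = true := by decide +kernel
  have hs : (threeElems.all fun a => sift 24 (chain 24 m22Levels g22) a.1) = true := by decide +kernel
  have hle : grp threeElems ≤ grp g22 := by
    refine grp_le hv fun a ha g hg => mem_grp_of_sift m22Levels g22_valid m22_check _ ?_
    rw [hg]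
    exact List.all_eq_true.1 hs a ha
  let H := (grp threeElems).subgroupOf (grp g22)
  have hH : Nat.card H = 9 := by
    rw [Nat.card_congr (Subgroup.subgroupOfEquivOfLe hle).toEquiv, card_grp _ hv three_check]
    decide +kernel
  have hfac : (443520 : ℕ).factorization 3 = 2 := by
    have h : (3 ^ 2 * 49280 : ℕ).factorization 3 = 2 := by
      rw [Nat.factorization_mul (pow_ne_zero _ (by norm_num)) (by norm_num), Finsupp.add_apply,
        Nat.Prime.factorization_pow Nat.prime_three,
        Nat.factorization_eq_zero_of_not_dvd (show ¬ 3 ∣ 49280 by norm_num)]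
      simp
    exact h
  let Q : Sylow 3 (grp g22) := Sylow.ofCard H (by rw [hH, card_g22, hfac]; rfl)
  obtain ⟨P, hP⟩ := Sylow.mapSurjective_surjective hσ.1 3 Q
  refine ⟨P, ?_⟩
  -- generators of H
  have hmem : ∀ i : Fin 2, ∃ g : grp g22, img (toFin g) = (threeElems.getD i (oneP 24)).1 := by
    intro i
    have hi : (i : ℕ) < threeElems.length := lt_of_lt_of_le i.isLt (by decide)
    obtain ⟨τ, -, hτ⟩ := valid_of_validB (List.all_eq_true.1 hv _ (List.getElem_mem hi))
    have hs' := List.all_eq_true.1 hs _ (List.getElem_mem hi)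
    rw [hτ] at hs'
    refine ⟨⟨toFin.symm τ, mem_grp_of_sift m22Levels g22_valid m22_check _
      (by rwa [toFin.apply_symm_apply])⟩, ?_⟩
    show img (toFin (toFin.symm τ)) = _
    rw [toFin.apply_symm_apply, List.getD_eq_getElem _ _ hi, hτ]
  choose E hE using hmem
  have hHle : H ≤ Subgroup.closure (Set.range E) := by
    intro g hg
    have h : grp threeElems ≤ (Subgroup.closure (Set.range E)).map (grp g22).subtype := by
      refine grp_le hv fun a ha k hk => ?_
      obtain ⟨i, hi, rfl⟩ := List.getElem_of_mem ha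
      have hlen : threeElems.length = 2 := by decide +kernel
      refine ⟨E ⟨i, hlen ▸ hi⟩, Subgroup.subset_closure ⟨_, rfl⟩,
        toFin.injective (img_injective ?_)⟩
      rw [hk]
      exact (hE _).trans (congrArg Prod.fst (List.getD_eq_getElem _ _ hi))
    obtain ⟨g', hg', he⟩ := h hg
    rwa [Subtype.ext he] at hg'
  choose l hl using fun i => hσ.1 (E i)
  have hx3 : E 0 * E 0 * E 0 = 1 := grp_ext (by
    simp only [img_grp_mul, img_grp_one, hE]; decide +kernel)
  have hxy : E 0 * E 1 = E 1 * E 0 := grp_ext (by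
    simp only [img_grp_mul, hE]; decide +kernel)
  have cen : ∀ z ∈ σ.ker, ∀ w : Γ, w * z = z * w :=
    fun z hz w => Subgroup.mem_center_iff.1 (hσ.2.1 hz) w
  set a := l 0
  set b := l 1
  have hck : ⁅a, b⁆ ∈ σ.ker := by
    rw [MonoidHom.mem_ker, map_commutatorElement, hl, hl, commutatorElement_eq_one_iff_mul_comm, hxy]
  have hc3 : ⁅a, b⁆ ^ 3 = 1 := by
    have hab : a * b * a⁻¹ = ⁅a, b⁆ * b := by simp only [commutatorElement_def]; group
    have hb : ∀ k : ℕ, a ^ k * b * (a ^ k)⁻¹ = ⁅a, b⁆ ^ k * b := by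
      intro k
      induction k with
      | zero => simp
      | succ k ih =>
        rw [pow_succ' a k, show a * a ^ k * b * (a * a ^ k)⁻¹ = a * (a ^ k * b * (a ^ k)⁻¹) * a⁻¹
          by group, ih, ← mul_assoc a, cen _ (pow_mem hck k) a, mul_assoc (⁅a, b⁆ ^ k), mul_assoc,
          hab, ← mul_assoc, ← pow_succ]
    have h3 : a ^ 3 ∈ σ.ker := by
      rw [MonoidHom.mem_ker, map_pow, hl, pow_three, ← mul_assoc, hx3]
    have h1 := hb 3
    rw [← cen _ h3 b, mul_inv_cancel_right] at h1
    exact mul_eq_right.1 h1.symm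
  let Z := Subgroup.zpowers ⁅a, b⁆
  have hZk : Z ≤ σ.ker := by rw [Subgroup.zpowers_le]; exact hck
  haveI : Z.Normal := ⟨fun z hz g => by
    rw [cen z (hZk hz) g, mul_inv_cancel_right]; exact hz⟩
  let S : Set Γ := {a, b} ∪ (σ.ker : Set Γ)
  have hPS : (P : Subgroup Γ) ≤ Subgroup.closure S := by
    refine (H10.le_closure_union_ker (s := {a, b}) ?_).trans le_rfl
    have h2 : (P : Subgroup Γ).map σ = H := by
      have : ((P.mapSurjective hσ.1 : Sylow 3 (grp g22)) : Subgroup (grp g22)) = H := by rw [hP]; rfl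
      rwa [Sylow.coe_mapSurjective] at this
    rw [h2]
    refine hHle.trans ((Subgroup.closure_le _).2 ?_)
    rintro _ ⟨i, rfl⟩
    refine Subgroup.subset_closure ⟨l i, ?_, hl i⟩
    fin_cases i
    · exact Or.inl rfl
    · exact Or.inr rfl
  have hcommZ : ⁅Subgroup.closure S, Subgroup.closure S⁆ ≤ Z := by
    have hq : ∀ u ∈ S, ∀ v ∈ S, QuotientGroup.mk' Z u * QuotientGroup.mk' Z v =
        QuotientGroup.mk' Z v * QuotientGroup.mk' Z u := by
      intro u hu v hv
      rw [← commutatorElement_eq_one_iff_mul_comm, ← map_commutatorElement]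
      refine (QuotientGroup.eq_one_iff _).2 ?_
      rcases hu with (rfl | rfl) | hu
      · rcases hv with (rfl | rfl) | hv
        · rw [commutatorElement_self]; exact one_mem _
        · exact Subgroup.mem_zpowers _
        · rw [commutatorElement_eq_one_iff_mul_comm.2 (cen v hv a)]; exact one_mem _
      · rcases hv with (rfl | rfl) | hv
        · rw [← commutatorElement_inv]; exact inv_mem (Subgroup.mem_zpowers _)
        · rw [commutatorElement_self]; exact one_mem _
        · rw [commutatorElement_eq_one_iff_mul_comm.2 (cen v hv b)]; exact one_mem _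
      · rw [commutatorElement_eq_one_iff_mul_comm.2 (cen u hu v).symm]; exact one_mem _
    haveI : IsMulCommutative (Subgroup.closure (QuotientGroup.mk' Z '' S)) :=
      Subgroup.isMulCommutative_closure (by
        rintro _ ⟨u, hu, rfl⟩ _ ⟨v, hv, rfl⟩
        exact hq u hu v hv)
    rw [Subgroup.commutator_le]
    intro u hu v hv
    rw [← QuotientGroup.eq_one_iff (N := Z), ← QuotientGroup.mk'_apply, map_commutatorElement,
      commutatorElement_eq_one_iff_mul_comm]
    have hu' := Subgroup.mem_map_of_mem (QuotientGroup.mk' Z) hu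
    have hv' := Subgroup.mem_map_of_mem (QuotientGroup.mk' Z) hv
    rw [MonoidHom.map_closure] at hu' hv'
    exact congrArg Subtype.val
      (IsMulCommutative.is_comm.comm (⟨_, hu'⟩ : Subgroup.closure (QuotientGroup.mk' Z '' S)) ⟨_, hv'⟩)
  refine (Subgroup.card_dvd_of_le (inf_le_right.trans
    ((Subgroup.commutator_mono hPS hPS).trans hcommZ))).trans ?_
  rw [Nat.card_zpowers]
  exact orderOf_dvd_of_pow_eq_one hc3

/-- Stem extensions of M22 have kernels of order at most twelve. -/
theorem card_ker_dvd_twelve {Γ : Type} [Group Γ] [Finite Γ] {σ : Γ →* grp g22}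
    (hσ : Cfsg.IsStemExtension σ) : Nat.card σ.ker ∣ 12 := by
  haveI : Finite (grp g22) := Nat.finite_of_card_ne_zero (by rw [card_g22]; decide)
  rw [← Nat.factorization_le_iff_dvd Nat.card_pos.ne' (by norm_num)]
  intro p
  by_cases hp : p.Prime
  swap
  · simp [Nat.factorization_eq_zero_of_not_prime _ hp]
  haveI := Fact.mk hp
  have h12 : (12 : ℕ).factorization p = (if p = 2 then 2 else 0) + (if p = 3 then 1 else 0) := by
    rw [show (12 : ℕ) = 2 ^ 2 * 3 ^ 1 by norm_num, Nat.factorization_mul (by norm_num) (by norm_num),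
      Finsupp.add_apply, Nat.Prime.factorization_pow Nat.prime_two,
      Nat.Prime.factorization_pow Nat.prime_three, Finsupp.single_apply, Finsupp.single_apply]
    simp [eq_comm]
  rw [h12]
  by_cases h2 : p = 2
  · subst h2
    obtain ⟨P, hP⟩ := two_part_dvd hσ
    simpa using factorization_ker_le hσ P (k := 2) hP
  by_cases h3 : p = 3
  · subst h3
    obtain ⟨P, hP⟩ := three_part_dvd hσ
    simpa using factorization_ker_le hσ P (k := 1) (by simpa using hP)
  · refine le_of_eq_of_le (Nat.factorization_eq_zero_of_not_dvd ?_) (Nat.zero_le _)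
    refine H64.not_dvd_card_ker_of_isCyclic hσ fun Q => ?_
    have hd : p ^ (Nat.card (grp g22)).factorization p ∣ 443520 := by
      rw [← card_g22]; exact Nat.ordProj_dvd _ _
    have hQ := Q.card_eq_multiplicity
    have hk : (Nat.card (grp g22)).factorization p ≤ 1 := by
      by_contra hlt
      have hsq : p ^ 2 ∣ 443520 := (pow_dvd_pow p (by omega)).trans hd
      have hle : p ^ 2 ≤ 443520 := Nat.le_of_dvd (by norm_num) hsq
      have hp667 : p < 667 := by nlinarith
      revert hsq
      have : ∀ q < 667, q ≠ 2 → q ≠ 3 → q.Prime → ¬ q * q ∣ 443520 := by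
        intro q hq q2 q3 qp hqq
        have hq1 : q ∣ 443520 := (dvd_mul_right q q).trans hqq
        have h' : q ∈ Nat.primeFactorsList 443520 :=
          (Nat.mem_primeFactorsList (by norm_num)).2 ⟨qp, hq1⟩
        have he : q = 5 ∨ q = 7 ∨ q = 11 := by
          have hmul : q ∣ 2 ^ 7 * (3 ^ 2 * (5 * (7 * 11))) := by norm_num; exact hq1
          rcases (Nat.Prime.dvd_mul qp).1 hmul with h | h
          · exact absurd ((Nat.prime_dvd_prime_iff_eq qp Nat.prime_two).1 (qp.dvd_of_dvd_pow h)) q2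
          rcases (Nat.Prime.dvd_mul qp).1 h with h | h
          · exact absurd ((Nat.prime_dvd_prime_iff_eq qp Nat.prime_three).1 (qp.dvd_of_dvd_pow h)) q3
          rcases (Nat.Prime.dvd_mul qp).1 h with h | h
          · exact Or.inl ((Nat.prime_dvd_prime_iff_eq qp (by norm_num)).1 h)
          rcases (Nat.Prime.dvd_mul qp).1 h with h | h
          · exact Or.inr (Or.inl ((Nat.prime_dvd_prime_iff_eq qp (by norm_num)).1 h))
          · exact Or.inr (Or.inr ((Nat.prime_dvd_prime_iff_eq qp (by norm_num)).1 h))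
        rcases he with rfl | rfl | rfl <;> norm_num at hqq
      rw [pow_two]
      exact this p hp667 h2 h3 hp
    rcases Nat.le_one_iff_eq_zero_or_eq_one.1 hk with h | h <;> rw [h] at hQ
    · rw [pow_zero] at hQ
      rw [Subgroup.card_eq_one.1 hQ]
      exact Bot.isCyclic
    · rw [pow_one] at hQ
      exact isCyclic_of_prime_card hQ

/-- The multiplier of M22. -/
theorem mult_M22 : Cfsg.HasCyclicSchurMultiplier ↥Spor.M22 12 := by
  haveI : Finite Spor.M22 := Nat.finite_of_card_ne_zero (by rw [M22_eq, card_g22]; decide)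
  have hM := H82.hasSchurMultiplier_multiplier (G := Spor.M22)
  haveI := H82.HasSchurMultiplier.finite hM
  let A := H82.Multiplier Spor.M22
  have hle : Nat.card A ∣ 12 := by
    obtain ⟨Δ, _, _, τ, hτ, ⟨d⟩⟩ := hM.1
    rw [← Nat.card_congr d.toEquiv]
    let em : Spor.M22 ≃* grp g22 := MulEquiv.subgroupCongr M22_eq
    have h := card_ker_dvd_twelve (H82.isStemExtension_comp_equiv hτ em)
    rwa [MonoidHom.ker_comp_of_injective _ _ em.injective] at h
  obtain ⟨Γ3, _, _, σ3, h3, c3, n3⟩ := Three.exists_stem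
  obtain ⟨Γ4, _, _, σ4, h4, c4, n4⟩ := Four.exists_stem
  obtain ⟨f3, hf3⟩ := H82.HasSchurMultiplier.exists_surjective_stem hM h3
  obtain ⟨f4, hf4⟩ := H82.HasSchurMultiplier.exists_surjective_stem hM h4
  have d3 := Subgroup.card_dvd_of_surjective f3 hf3
  have d4 := Subgroup.card_dvd_of_surjective f4 hf4
  rw [n3] at d3
  rw [n4] at d4
  have hA : Nat.card A = 12 := Nat.dvd_antisymm hle (Nat.Coprime.mul_dvd_of_dvd_of_dvd (by norm_num : Nat.Coprime 3 4) d3 d4)
  obtain ⟨u, hu⟩ := IsCyclic.exists_ofOrder_eq_natCard (α := σ4.ker)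
  obtain ⟨v, hv⟩ := IsCyclic.exists_ofOrder_eq_natCard (α := σ3.ker)
  obtain ⟨x, rfl⟩ := hf4 u
  obtain ⟨y, rfl⟩ := hf3 v
  have hx : 4 ∣ orderOf x := by rw [← n4, ← hu]; exact orderOf_map_dvd f4 x
  have hy : 3 ∣ orderOf y := by rw [← n3, ← hv]; exact orderOf_map_dvd f3 y
  obtain ⟨x', hx'⟩ : ∃ z : A, orderOf z = 4 := ⟨_, orderOf_pow_orderOf_div (orderOf_pos x).ne' hx⟩
  obtain ⟨y', hy'⟩ : ∃ z : A, orderOf z = 3 := ⟨_, orderOf_pow_orderOf_div (orderOf_pos y).ne' hy⟩
  have hxy : orderOf (x' * y') = Nat.card A := by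
    rw [(Commute.all x' y').orderOf_mul_eq_mul_orderOf_of_coprime (by rw [hx', hy']; norm_num),
      hx', hy', hA]
  haveI : IsCyclic A := isCyclic_of_orderOf_eq_card _ hxy
  exact H82.HasSchurMultiplier.congr hM ((zmodCyclicMulEquiv inferInstance).symm.trans
    (AddEquiv.toMultiplicative (ZMod.ringEquivCongr hA).toAddEquiv))

end Cfsg.Agent.H10.M22Mult
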