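import Mathlib

/-!
Certified monomial extensions of a permutation group on 24 points: a chain of point stabilisers
showing that the kernel of the projection consists of scalars only.
-/

set_option autoImplicit false

namespace Cfsg.Agent.H10.M22Mult

/-- The ambient group of a monomial extension. -/
abbrev MX (N m : ℕ) := Equiv.Perm (Fin 24) × Equiv.Perm (Fin N × ZMod m)

/-- A packed element: images of the 24 points and the monomial fields. -/
abbrev PK := ℕ × ℕ

/-- Image of a point of the 24. -/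
def p24 (A : PK) (j : ℕ) : ℕ := A.1 >>> (5 * j) % 32 % 24

/-- A monomial field. -/
def field (A : PK) (i : ℕ) : ℕ := A.2 >>> (13 * i) % 8192

/-- One step on packed states. -/
def stepN (N m : ℕ) (A : PK) (s : ℕ × ℕ) : ℕ × ℕ :=
  (field A s.1 / m % N, (field A s.1 + s.2) % m)

/-- A product of packed elements on states. -/
def evalN (N m : ℕ) (l : List PK) (s : ℕ × ℕ) : ℕ × ℕ := l.foldr (stepN N m) s

/-- A product of packed elements on the 24 points. -/
def evalP (l : List PK) (j : ℕ) : ℕ := l.foldr p24 j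

/-- Two products agree up to a scalar. -/
def sameB (N m : ℕ) (l r : List PK) (c : ℕ) : Bool :=
  (List.range 24).all (fun j => evalP l j == evalP r j) &&
    (List.range N).all fun i =>
      let u := evalN N m l (i, 0); let v := evalN N m r (i, 0)
      u.1 == v.1 && u.2 == (v.2 + c) % m

variable {N m : ℕ} [NeZero N] [NeZero m]

/-- The monomial map of a packed element. -/
def monoF (A : PK) (p : Fin N × ZMod m) : Fin N × ZMod m :=
  (⟨field A p.1 / m % N, Nat.mod_lt _ (NeZero.pos N)⟩, (field A p.1 : ZMod m) + p.2)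

/-- The point map of a packed element. -/
def pointF (A : PK) (j : Fin 24) : Fin 24 := ⟨p24 A j, Nat.mod_lt _ (by decide)⟩

/-- Products of monomial maps. -/
def chainF (l : List PK) (p : Fin N × ZMod m) : Fin N × ZMod m := l.foldr monoF p

/-- Products of point maps. -/
def chainP (l : List PK) (j : Fin 24) : Fin 24 := l.foldr pointF j

theorem chainP_val (l : List PK) (j : Fin 24) : (chainP l j : ℕ) = evalP l j := by
  induction l with
  | nil => rfl
  | cons A l ih => show p24 A (chainP l j) = _; rw [ih]; rfl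

theorem chainF_val (l : List PK) (i : Fin N) :
    ((chainF l (i, (0 : ZMod m))).1 : ℕ) = (evalN N m l (i, 0)).1 ∧
      (chainF l (i, (0 : ZMod m))).2 = ((evalN N m l (i, 0)).2 : ZMod m) := by
  induction l with
  | nil => simp [chainF, evalN]
  | cons A l ih =>
    simp only [chainF, evalN, List.foldr_cons] at ih ⊢
    simp only [monoF, stepN, ih.1, ih.2, ZMod.natCast_mod, Nat.cast_add, and_self]

theorem chainF_shift (l : List PK) (p : Fin N × ZMod m) :
    chainF l p = ((chainF l (p.1, (0 : ZMod m))).1, (chainF l (p.1, (0 : ZMod m))).2 + p.2) := by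
  induction l with
  | nil => simp [chainF]
  | cons A l ih =>
    show monoF A (chainF l p) = _
    rw [ih]
    show _ = ((monoF A (chainF l (p.1, (0 : ZMod m)))).1, (monoF A (chainF l (p.1, (0 : ZMod m)))).2 + p.2)
    simp only [monoF, add_assoc]

/-- A scalar. -/
def scal (c : ZMod m) : Equiv.Perm (Fin N × ZMod m) :=
  (Equiv.refl (Fin N)).prodCongr (Equiv.addRight c)

omit [NeZero N] [NeZero m] in
theorem scal_apply (c : ZMod m) (p : Fin N × ZMod m) : scal c p = (p.1, p.2 + c) := rfl

theorem sameB_spec {l r : List PK} {c : ℕ} (h : sameB N m l r c = true) :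
    (∀ j, chainP l j = chainP r j) ∧ ∀ p : Fin N × ZMod m, chainF l p = scal (c : ZMod m) (chainF r p) := by
  simp only [sameB, Bool.and_eq_true, List.all_eq_true, List.mem_range, beq_iff_eq] at h
  refine ⟨fun j => Fin.ext (by rw [chainP_val, chainP_val]; exact h.1 j j.isLt), fun p => ?_⟩
  rw [chainF_shift l, chainF_shift r, scal_apply]
  obtain ⟨e1, e2⟩ := h.2 p.1 p.1.isLt
  refine Prod.ext (Fin.ext ?_) ?_
  · show ((chainF l (p.1, 0)).1 : ℕ) = (chainF r (p.1, 0)).1
    rw [(chainF_val l p.1).1, (chainF_val r p.1).1, e1]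
  · show (chainF l (p.1, 0)).2 + p.2 = (chainF r (p.1, 0)).2 + p.2 + (c : ZMod m)
    rw [(chainF_val l p.1).2, (chainF_val r p.1).2, e2, ZMod.natCast_mod, Nat.cast_add]
    ring

/-- An element of the ambient group has the packed value. -/
def Rep (x : MX N m) (A : PK) : Prop := (∀ j, x.1 j = pointF A j) ∧ ∀ p, x.2 p = monoF A p

theorem Rep.unique {x y : MX N m} {A : PK} (hx : Rep x A) (hy : Rep y A) : x = y :=
  Prod.ext (Equiv.ext fun j => (hx.1 j).trans (hy.1 j).symm)
    (Equiv.ext fun p => (hx.2 p).trans (hy.2 p).symm)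

theorem prod_apply {xs : List (MX N m)} {l : List PK} (h : List.Forall₂ Rep xs l) :
    (∀ j, xs.prod.1 j = chainP l j) ∧ ∀ p, xs.prod.2 p = chainF l p := by
  induction h with
  | nil => exact ⟨fun _ => rfl, fun _ => rfl⟩
  | @cons x A xs l hx _ ih =>
    refine ⟨fun j => ?_, fun p => ?_⟩
    · rw [List.prod_cons, Prod.fst_mul, Equiv.Perm.mul_apply, ih.1, hx.1]; rfl
    · rw [List.prod_cons, Prod.snd_mul, Equiv.Perm.mul_apply, ih.2, hx.2]; rfl

theorem prod_eq_of_same {xs ys : List (MX N m)} {l r : List PK} {c : ℕ}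
    (hx : List.Forall₂ Rep xs l) (hy : List.Forall₂ Rep ys r) (h : sameB N m l r c = true) :
    xs.prod = (1, scal (c : ZMod m)) * ys.prod := by
  refine Prod.ext (Equiv.ext fun j => ?_) (Equiv.ext fun p => ?_)
  · rw [(prod_apply hx).1, (sameB_spec h).1, ← (prod_apply hy).1]; rfl
  · rw [(prod_apply hx).2, (sameB_spec h).2, ← (prod_apply hy).2]; rfl

omit [NeZero N] [NeZero m] in
theorem scal_zero : (scal (0 : ZMod m) : Equiv.Perm (Fin N × ZMod m)) = 1 :=
  Equiv.ext fun p => by rw [scal_apply, add_zero]; rfl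

/-- An element with a given two sided inverse. -/
theorem exists_rep {A B : PK} (h1 : sameB N m [A, B] [] 0 = true)
    (h2 : sameB N m [B, A] [] 0 = true) :
    ∃ x : MX N m, Rep x A ∧ Rep x⁻¹ B := by
  obtain ⟨a1, a2⟩ := sameB_spec h1
  obtain ⟨b1, b2⟩ := sameB_spec h2
  simp only [Nat.cast_zero, scal_zero] at a2 b2
  exact ⟨(⟨pointF A, pointF B, b1, a1⟩, ⟨monoF A, monoF B, b2, a2⟩),
    ⟨fun _ => rfl, fun _ => rfl⟩, fun _ => rfl, fun _ => rfl⟩

/-- A level of the certificate. -/
structure MLevel where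
  /-- The base point. -/
  base : ℕ
  /-- The generators. -/
  gens : List PK
  /-- The transversal. -/
  trans : List PK
  /-- Parent and generator of each transversal element after the first. -/
  tree : List (ℕ × ℕ)
  /-- The sifts of the products: digits and scalar. -/
  rows : List (List (List ℕ × ℕ))
  /-- The generators of the following level as quotients. -/
  prov : List (ℕ × ℕ × ℕ)

/-- An empty level. -/
def noLevel : MLevel := ⟨0, [], [], [], [], []⟩

/-- The default packed element. -/
def noPK : PK := (0, 0)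

variable (N m) in
/-- The check of a level. -/
def levelOK (gc : ℕ) (L : List MLevel) (i : ℕ) : Bool :=
  let v := L.getD i noLevel
  let w := L.getD (i + 1) noLevel
  sameB N m [v.trans.getD 0 noPK] [] 0 && decide (v.base < 24) && decide (0 < v.trans.length) &&
  (List.range (v.trans.length - 1)).all (fun k => p24 (v.trans.getD (k + 1) noPK) v.base != v.base) &&
  decide (v.tree.length + 1 = v.trans.length) &&
  (List.range v.tree.length).all (fun k =>
    let e := v.tree.getD k (0, 0)
    decide (e.1 ≤ k) && decide (e.2 < v.gens.length) &&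
      sameB N m [v.trans.getD (k + 1) noPK] [v.gens.getD e.2 noPK, v.trans.getD e.1 noPK] 0) &&
  decide (v.prov.length = w.gens.length) &&
  (List.range w.gens.length).all (fun q =>
    let e := v.prov.getD q (0, 0, 0)
    (p24 (w.gens.getD q noPK) v.base == v.base) &&
    decide (e.1 < v.trans.length) && decide (e.2.1 < v.gens.length) &&
    decide (e.2.2 < v.trans.length) &&
      sameB N m [v.trans.getD e.1 noPK, w.gens.getD q noPK]
        [v.gens.getD e.2.1 noPK, v.trans.getD e.2.2 noPK] 0) &&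
  (List.range v.gens.length).all (fun g =>
    (List.range v.trans.length).all fun k =>
      let e := (v.rows.getD g []).getD k ([], 0)
      decide (e.1.length = L.length - i) &&
      (List.range e.1.length).all (fun j =>
        decide (e.1.getD j 0 < (L.getD (i + j) noLevel).trans.length)) &&
      (e.2 % gc == 0) &&
      sameB N m [v.gens.getD g noPK, v.trans.getD k noPK]
        ((List.range e.1.length).map fun j =>
          (L.getD (i + j) noLevel).trans.getD (e.1.getD j 0) noPK) e.2)

variable (N m) in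
/-- The scalar element. -/
def scalX (gc : ℕ) : MX N m := (1, scal (gc : ZMod m))

variable (N m) in
/-- The subgroup of a level. -/
def lvlGroup (gc : ℕ) (L : List MLevel) (i : ℕ) : Subgroup (MX N m) :=
  Subgroup.closure ({x | ∃ A ∈ (L.getD i noLevel).gens, Rep x A} ∪ {scalX N m gc})

theorem scalX_mem (gc : ℕ) (L : List MLevel) (i : ℕ) : scalX N m gc ∈ lvlGroup N m gc L i :=
  Subgroup.subset_closure (Or.inr rfl)

theorem scal_mem {gc c : ℕ} (h : c % gc = 0) (L : List MLevel) (i : ℕ) :
    ((1, scal (c : ZMod m)) : MX N m) ∈ lvlGroup N m gc L i := by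
  obtain ⟨k, rfl⟩ := Nat.dvd_of_mod_eq_zero h
  have : ((1, scal ((gc * k : ℕ) : ZMod m)) : MX N m) = scalX N m gc ^ k := by
    clear h
    induction k with
    | zero => simp [scal_zero, Prod.mk_one_one]
    | succ k ih =>
      rw [pow_succ, ← ih, scalX]
      refine Prod.ext (by simp) (Equiv.ext fun p => ?_)
      show _ = scal _ (scal _ p)
      simp only [scal_apply, Nat.cast_mul, Nat.cast_add, Nat.cast_one]
      exact Prod.ext rfl (by ring)
  rw [this]
  exact pow_mem (scalX_mem gc L i) k

/-- The reps of the generators of a level lie in that level. -/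
def GenOK (gc : ℕ) (L : List MLevel) (i : ℕ) : Prop :=
  ∀ A ∈ (L.getD i noLevel).gens, ∃ x ∈ lvlGroup N m gc L i, Rep x A

theorem getD_mem {α : Type} {l : List α} {k : ℕ} (h : k < l.length) (d : α) : l.getD k d ∈ l := by
  rw [List.getD_eq_getElem?_getD, List.getElem?_eq_getElem h]
  exact List.getElem_mem h

theorem forall₂_map {α : Type} {P : MX N m → Prop} {f : α → PK} :
    ∀ {js : List α}, (∀ j ∈ js, ∃ x, P x ∧ Rep x (f j)) →
      ∃ xs : List (MX N m), List.Forall₂ Rep xs (js.map f) ∧ ∀ x ∈ xs, P x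
  | [], _ => ⟨[], .nil, by simp⟩
  | j :: js, h => by
    obtain ⟨x, hx, hr⟩ := h j List.mem_cons_self
    obtain ⟨xs, h1, h2⟩ := forall₂_map (P := P) (f := f) (js := js) fun k hk => h k (List.mem_cons_of_mem _ hk)
    exact ⟨x :: xs, .cons hr h1, List.forall_mem_cons.2 ⟨hx, h2⟩⟩

variable {gc : ℕ} {L : List MLevel}

theorem trans_mem {i : ℕ} (hc : levelOK N m gc L i = true) (hG : GenOK (N := N) (m := m) gc L i) :
    ∀ k < (L.getD i noLevel).trans.length,
      ∃ x ∈ lvlGroup N m gc L i, Rep x ((L.getD i noLevel).trans.getD k noPK) := by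
  simp only [levelOK, Bool.and_eq_true, List.all_eq_true, List.mem_range, decide_eq_true_eq] at hc
  obtain ⟨⟨⟨⟨⟨⟨⟨⟨h0, -⟩, -⟩, -⟩, hl⟩, ht⟩, -⟩, -⟩, -⟩ := hc
  intro k
  induction k using Nat.strong_induction_on with
  | _ k ih =>
    intro hk
    cases k with
    | zero =>
      obtain ⟨a1, a2⟩ := sameB_spec (N := N) (m := m) h0
      simp only [Nat.cast_zero, scal_zero] at a2
      exact ⟨1, one_mem _, fun j => (a1 j).symm, fun p => (a2 p).symm⟩
    | succ k =>
      obtain ⟨⟨hp, hg⟩, hs⟩ := ht k (by omega)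
      obtain ⟨u, hu, hur⟩ := hG _ (getD_mem hg noPK)
      obtain ⟨v, hv, hvr⟩ := ih _ (Nat.lt_succ_of_le hp) (by omega)
      obtain ⟨a1, a2⟩ := sameB_spec (N := N) (m := m) hs
      simp only [Nat.cast_zero, scal_zero] at a2
      refine ⟨u * v, mul_mem hu hv, fun j => ?_, fun p => ?_⟩
      · rw [Prod.fst_mul, Equiv.Perm.mul_apply, hvr.1, hur.1]; exact (a1 j).symm
      · rw [Prod.snd_mul, Equiv.Perm.mul_apply, hvr.2, hur.2]; exact (a2 p).symm

theorem genOK_succ {i : ℕ} (hc : levelOK N m gc L i = true) (hG : GenOK (N := N) (m := m) gc L i) :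
    GenOK (N := N) (m := m) gc L (i + 1) ∧
      lvlGroup N m gc L (i + 1) ≤ lvlGroup N m gc L i := by
  have hT := trans_mem hc hG
  simp only [levelOK, Bool.and_eq_true, List.all_eq_true, List.mem_range, decide_eq_true_eq] at hc
  obtain ⟨⟨-, hq⟩, -⟩ := hc
  have key : ∀ A ∈ (L.getD (i + 1) noLevel).gens, ∃ x ∈ lvlGroup N m gc L i, Rep x A := by
    intro A hA
    obtain ⟨q, hq', rfl⟩ := List.getElem_of_mem hA
    obtain ⟨⟨⟨⟨-, h1⟩, h2⟩, h3⟩, hs⟩ := hq q hq'
    rw [List.getD_eq_getElem?_getD (l := (L.getD (i + 1) noLevel).gens),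
      List.getElem?_eq_getElem hq', Option.getD_some] at hs
    obtain ⟨t', ht', ht'r⟩ := hT _ h1
    obtain ⟨u, hu, hur⟩ := hG _ (getD_mem h2 noPK)
    obtain ⟨t, ht, htr⟩ := hT _ h3
    obtain ⟨a1, a2⟩ := sameB_spec (N := N) (m := m) hs
    simp only [Nat.cast_zero, scal_zero] at a2
    refine ⟨t'⁻¹ * (u * t), mul_mem (inv_mem ht') (mul_mem hu ht), fun j => ?_, fun p => ?_⟩
    · rw [Prod.fst_mul, Prod.fst_inv, Equiv.Perm.mul_apply, Equiv.Perm.inv_def, Equiv.symm_apply_eq,
        ht'r.1, Prod.fst_mul, Equiv.Perm.mul_apply, htr.1, hur.1]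
      exact (a1 j).symm
    · rw [Prod.snd_mul, Prod.snd_inv, Equiv.Perm.mul_apply, Equiv.Perm.inv_def, Equiv.symm_apply_eq,
        ht'r.2, Prod.snd_mul, Equiv.Perm.mul_apply, htr.2, hur.2]
      exact (a2 p).symm
  refine ⟨fun A hA => ?_, ?_⟩
  · obtain ⟨x, -, hx⟩ := key A hA
    exact ⟨x, Subgroup.subset_closure (Or.inl ⟨A, hA, hx⟩), hx⟩
  · refine (Subgroup.closure_le _).2 ?_
    rintro x (⟨A, hA, hx⟩ | rfl)
    · obtain ⟨y, hy, hy'⟩ := key A hA
      rw [SetLike.mem_coe, hx.unique hy']
      exact hy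
    · exact scalX_mem gc L i

variable (hcheck : ∀ i < L.length, levelOK N m gc L i = true)
  (h0 : GenOK (N := N) (m := m) gc L 0)
include hcheck h0

theorem genOK_all : ∀ i ≤ L.length, GenOK (N := N) (m := m) gc L i
  | 0, _ => h0
  | i + 1, h => (genOK_succ (hcheck i h) (genOK_all i (Nat.le_of_succ_le h))).1

theorem lvlGroup_anti {i : ℕ} : ∀ {k : ℕ}, i + k ≤ L.length →
    lvlGroup N m gc L (i + k) ≤ lvlGroup N m gc L i
  | 0, _ => le_rfl
  | k + 1, h => (genOK_succ (hcheck (i + k) (by omega)) (genOK_all hcheck h0 _ (by omega))).2.trans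
      (lvlGroup_anti (by omega))

theorem mem_succ_of_fix {i : ℕ} (hi : i < L.length) {b : Fin 24}
    (hb : (b : ℕ) = (L.getD i noLevel).base) {x : MX N m} (hx : x ∈ lvlGroup N m gc L i)
    (hfix : x.1 b = b) : x ∈ lvlGroup N m gc L (i + 1) := by
  have hG := genOK_all hcheck h0 i hi.le
  have hT := trans_mem (hcheck i hi) hG
  have hc := hcheck i hi
  simp only [levelOK, Bool.and_eq_true, List.all_eq_true, List.mem_range, decide_eq_true_eq,
    beq_iff_eq, bne_iff_ne] at hc
  obtain ⟨⟨⟨⟨⟨⟨⟨⟨h0', -⟩, hpos⟩, hne⟩, -⟩, -⟩, -⟩, hq⟩, hrows⟩ := hc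
  set T := fun k => (L.getD i noLevel).trans.getD k noPK with hTdef
  have hdec : ∀ y ∈ lvlGroup N m gc L i, ∀ k < (L.getD i noLevel).trans.length, ∀ t, Rep t (T k) →
      ∃ k' < (L.getD i noLevel).trans.length, ∃ t', Rep t' (T k') ∧
        ∃ r ∈ lvlGroup N m gc L (i + 1), y * t = t' * r := by
    intro y hy
    rw [← Subgroup.mem_toSubmonoid, lvlGroup, Subgroup.closure_toSubmonoid_of_finite] at hy
    induction hy using Submonoid.closure_induction with
    | mem s hs =>
      intro k hk t ht
      rcases hs with ⟨A, hA, hsA⟩ | rfl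
      · obtain ⟨g, hg, rfl⟩ := List.getElem_of_mem hA
        obtain ⟨⟨⟨hlen, hd⟩, hc0⟩, hs⟩ := hrows g hg k hk
        set e := ((L.getD i noLevel).rows.getD g []).getD k ([], 0)
        rw [List.getD_eq_getElem?_getD (l := (L.getD i noLevel).gens),
          List.getElem?_eq_getElem hg, Option.getD_some,
          show e.1.length = (e.1.length - 1) + 1 by omega, List.range_succ_eq_map, List.map_cons,
          List.map_map] at hs
        obtain ⟨t', -, ht'⟩ := hT _ (hd 0 (by omega))
        obtain ⟨xs, hxs, hxK⟩ := forall₂_map (P := fun z => z ∈ lvlGroup N m gc L (i + 1))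
          (f := (fun j => (L.getD (i + j) noLevel).trans.getD (e.1.getD j 0) noPK) ∘ Nat.succ)
          (js := List.range (e.1.length - 1)) fun j hj => by
            rw [List.mem_range] at hj
            have hlt : i + (j + 1) < L.length := by omega
            obtain ⟨z, hz, hzr⟩ := trans_mem (hcheck _ hlt) (genOK_all hcheck h0 _ hlt.le)
              (e.1.getD (j + 1) 0) (hd _ (by omega))
            refine ⟨z, lvlGroup_anti hcheck h0 (i := i + 1) (k := j) (by omega) ?_, hzr⟩
            rwa [show i + 1 + j = i + (j + 1) by omega]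
        have he := prod_eq_of_same (N := N) (m := m)
          (List.Forall₂.cons hsA (List.Forall₂.cons ht List.Forall₂.nil))
          (List.Forall₂.cons ht' hxs) hs
        simp only [List.prod_cons, List.prod_nil, mul_one] at he
        refine ⟨e.1.getD 0 0, hd 0 (by omega), t', ht',
          ((1, scal (e.2 : ZMod m)) : MX N m) * xs.prod,
          mul_mem (scal_mem hc0 L _) (Subgroup.list_prod_mem _ hxK), ?_⟩
        rw [he, ← mul_assoc, ← mul_assoc]
        congr 1
        refine Prod.ext (by simp) (Equiv.ext fun p => ?_)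
        show scal _ (t'.2 p) = t'.2 (scal _ p)
        rw [scal_apply, ht'.2, ht'.2]
        simp [monoF, scal_apply, add_assoc]
      · refine ⟨k, hk, t, ht, scalX N m gc, scalX_mem gc L _, ?_⟩
        refine Prod.ext (by simp [scalX]) (Equiv.ext fun p => ?_)
        show scal _ (t.2 p) = t.2 (scal _ p)
        rw [scal_apply, ht.2, ht.2]
        simp [monoF, scal_apply, add_assoc]
    | one => exact fun k hk t ht => ⟨k, hk, t, ht, 1, one_mem _, by simp⟩
    | mul y z _ _ ihy ihz =>
      intro k hk t ht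
      obtain ⟨k₁, hk₁, t₁, ht₁, r₁, hr₁, e₁⟩ := ihz k hk t ht
      obtain ⟨k₂, hk₂, t₂, ht₂, r₂, hr₂, e₂⟩ := ihy k₁ hk₁ t₁ ht₁
      exact ⟨k₂, hk₂, t₂, ht₂, r₂ * r₁, mul_mem hr₂ hr₁,
        by rw [mul_assoc, e₁, ← mul_assoc, e₂, mul_assoc]⟩
  obtain ⟨a1, a2⟩ := sameB_spec (N := N) (m := m) h0'
  simp only [Nat.cast_zero, scal_zero] at a2
  have hone : Rep (1 : MX N m) (T 0) := ⟨fun j => (a1 j).symm, fun p => (a2 p).symm⟩
  obtain ⟨k, hk, t, ht, r, hr, he⟩ := hdec x hx 0 hpos 1 hone
  rw [mul_one] at he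
  have hrb : r.1 b = b := by
    have : lvlGroup N m gc L (i + 1) ≤
        (MulAction.stabilizer (Equiv.Perm (Fin 24)) b).comap (MonoidHom.fst _ _) := by
      refine (Subgroup.closure_le _).2 ?_
      rintro z (⟨A, hA, hz⟩ | rfl)
      · obtain ⟨q, hq', rfl⟩ := List.getElem_of_mem hA
        have hfx := (hq q hq').1.1.1.1
        rw [List.getD_eq_getElem?_getD (l := (L.getD (i + 1) noLevel).gens),
          List.getElem?_eq_getElem hq', Option.getD_some, ← hb] at hfx
        exact Fin.ext (by show (z.1 b : ℕ) = b; rw [hz.1]; exact hfx)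
      · rfl
    exact this hr
  rcases k with - | k
  · rw [he, ht.unique hone, one_mul]; exact hr
  · exfalso
    refine hne k (by omega) ?_
    have : t.1 b = b := by
      rw [he, Prod.fst_mul, Equiv.Perm.mul_apply, hrb] at hfix; exact hfix
    rw [ht.1] at this
    rw [← hb]
    exact congrArg Fin.val this

theorem mem_last_of_fst_one {x : MX N m} (hx : x ∈ lvlGroup N m gc L 0) (h1 : x.1 = 1) :
    x ∈ lvlGroup N m gc L L.length := by
  suffices ∀ i ≤ L.length, x ∈ lvlGroup N m gc L i from this _ le_rfl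
  intro i
  induction i with
  | zero => exact fun _ => hx
  | succ i ih =>
    intro hi
    have hb : (L.getD i noLevel).base < 24 := by
      have := hcheck i hi
      simp only [levelOK, Bool.and_eq_true, decide_eq_true_eq] at this
      exact this.1.1.1.1.1.1.1.2
    exact mem_succ_of_fix hcheck h0 hi (b := ⟨_, hb⟩) rfl (ih (Nat.le_of_succ_le hi))
      (by rw [h1]; rfl)

/-- The kernel of the projection consists of the scalars. -/
theorem kernel_scal {x : MX N m} (hx : x ∈ lvlGroup N m gc L 0) (h1 : x.1 = 1) :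
    x ∈ Subgroup.zpowers (scalX N m gc) := by
  have h := mem_last_of_fst_one hcheck h0 hx h1
  rw [Subgroup.zpowers_eq_closure]
  refine Subgroup.closure_mono ?_ h
  rintro z (⟨A, hA, -⟩ | hz)
  · simp [noLevel] at hA
  · exact hz

end Cfsg.Agent.H10.M22Mult
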