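import Cfsg.Agent.H10.M22Mult.TwoData
import Cfsg.Agent.H10.M22Mult.Collect
import Cfsg.Agent.H10.M11Mult
import Cfsg.Agent.H64.StemBasic
import Cfsg.Agent.H13.Groups

/-!
In a stem extension of M22 the two part of the kernel has order at most four.
-/

set_option autoImplicit false

namespace Cfsg.Agent.H10.M22Mult

open Cfsg Cfsg.Agent.H13 Cfsg.Agent.H13.Data TwoData
open scoped commutatorElement IsMulCommutative

/-- The word of a pair. -/
def rel22 (a b : ℕ) : List ℕ :=
  ((relWords.find? fun r => r.1 == a && r.2.1 == b).map fun r => r.2.2).getD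
    (if a = b then [] else [a])

/-- The constant index of a pair. -/
def idx22 (a b : ℕ) : ℕ := relWords.findIdx fun r => r.1 == a && r.2.1 == b

/-- Collection in M22. -/
def coll22 (w : List ℕ) : List ℕ × List ℕ := cColl rel22 idx22 80 w

/-- The table of a word in the generators. -/
def wordTab22 (w : List ℕ) : PL :=
  w.foldr (fun i acc => mulP (sylGens.getD i (oneP 24)) acc) (oneP 24)

/-- The equations: used constants on both sides. -/
def eqLists : List (List ℕ × List ℕ) :=
  consWords.map (fun t =>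
    ((coll22 [t.1, t.2.1, t.2.2]).2,
      (coll22 [t.2.1, t.2.2]).2 ++ (coll22 (t.1 :: (coll22 [t.2.1, t.2.2]).1)).2)) ++
  defEqs.map (fun q => ([idx22 q.1 q.2], [])) ++
  fusWords.map (fun q =>
    ((coll22 (q.1 ++ q.2.1)).2 ++ (coll22 (q.2.2.2 ++ q.2.2.1)).2,
      (coll22 (q.2.1 ++ q.1)).2 ++ (coll22 (q.2.2.1 ++ q.2.2.2)).2))

/-- The vector of an equation. -/
def eqVec (q : List ℕ × List ℕ) (p : ℕ) : ℤ := (q.1.count p : ℤ) - (q.2.count p : ℤ)

/-- A combination of the equations. -/
def comboVec (coef : List ℤ) (p : ℕ) : ℤ :=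
  ((List.range eqLists.length).map fun k => coef.getD k 0 * eqVec (eqLists.getD k ([], [])) p).sum

set_option maxHeartbeats 4000000 in
theorem topCert_ok : ∀ p < 28, comboVec topCert p = if p = topIdx then 4 else 0 := by
  decide +kernel

set_option maxHeartbeats 4000000 in
theorem constCert_ok : ∀ q ∈ constCert, ∀ p < 28,
    comboVec q.2.2 p = (if p = q.1 then 1 else 0) - (q.2.1 : ℤ) * (if p = topIdx then 1 else 0) := by
  decide +kernel

theorem constCert_all : ∀ p < 28, p ∈ freeIdx ∨ p ∈ constCert.map Prod.fst := by decide +kernel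

set_option maxHeartbeats 4000000 in
theorem eq_range : ∀ q ∈ eqLists, (∀ x ∈ q.1, x < 28) ∧ ∀ x ∈ q.2, x < 28 := by decide +kernel

theorem sum_map_count {M : Type} [AddCommGroup M] (a : ℕ → M) (U : ℕ) :
    ∀ l : List ℕ, (∀ x ∈ l, x < U) → (l.map a).sum = ∑ p ∈ Finset.range U, (l.count p : ℤ) • a p
  | [], _ => by simp
  | x :: l, h => by
    rw [List.map_cons, List.sum_cons,
      sum_map_count a U l fun y hy => h y (List.mem_cons_of_mem _ hy)]
    simp only [List.count_cons, beq_iff_eq, Nat.cast_add, Nat.cast_ite, Nat.cast_one, Nat.cast_zero,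
      add_smul, Finset.sum_add_distrib, ite_smul, one_smul, zero_smul]
    rw [Finset.sum_ite_eq, if_pos (Finset.mem_range.2 (h x List.mem_cons_self)), add_comm]

/-- The sublists of the derived part. -/
def dWords : List (List ℕ) := [3, 4, 5, 6].sublists

set_option maxHeartbeats 4000000 in
theorem dClosed : ∀ d ∈ [3, 4, 5, 6], ∀ w ∈ dWords,
    (coll22 (d :: w)).1 ∈ dWords ∧ ∀ x ∈ (coll22 (d :: w)).2, x < 28 ∧ x ∉ freeIdx := by
  decide +kernel

set_option maxHeartbeats 4000000 in
theorem dKernel : ∀ w ∈ dWords, (wordTab22 w).1 = List.range 24 → w = [] := by decide +kernel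

theorem pairShape : ∀ a : Fin 7, ∀ b : Fin 7, b < a →
    ((∀ x ∈ (rel22 a b).tail, x ∈ [3, 4, 5, 6]) ∧
      ((rel22 a b).headD 0 = a.val ∨ ((rel22 a b).headD 0 ∈ [3, 4, 5, 6] ∧ 3 ≤ a.val))) ∧
      rel22 a b ≠ [] ∧ idx22 a b < 28 ∧ idx22 a b ∉ freeIdx := by
  decide +kernel

set_option maxHeartbeats 4000000 in
/-- The two part of the kernel has order dividing four. -/
theorem two_part_dvd {Γ : Type} [Group Γ] [Finite Γ] {σ : Γ →* grp g22}
    (hσ : Cfsg.IsStemExtension σ) :
    ∃ P : Sylow 2 Γ, Nat.card (σ.ker ⊓ ⁅(P : Subgroup Γ), (P : Subgroup Γ)⁆ : Subgroup Γ) ∣ 4 := by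
  classical
  haveI : Finite (grp g22) := Nat.finite_of_card_ne_zero (by rw [card_g22]; decide)
  haveI : Fact (Nat.Prime 2) := ⟨by norm_num⟩
  have elem : ∀ {l : List PL}, l.all (validB 24) = true →
      (l.all fun a => sift 24 (chain 24 m22Levels g22) a.1) = true →
      ∀ i : ℕ, ∃ g : grp g22, img (toFin g) = (l.getD i (oneP 24)).1 ∧
        img (toFin (g⁻¹ : grp g22)) = (l.getD i (oneP 24)).2 := by
    intro l h1 h2 i
    by_cases hi : i < l.length
    · have hmem : l.getD i (oneP 24) ∈ l := by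
        rw [List.getD_eq_getElem?_getD, List.getElem?_eq_getElem hi]
        exact List.getElem_mem hi
      obtain ⟨τ, -, hτ⟩ := valid_of_validB (List.all_eq_true.1 h1 _ hmem)
      have hs := List.all_eq_true.1 h2 _ hmem
      simp only [hτ] at hs ⊢
      refine ⟨⟨toFin.symm τ, mem_grp_of_sift m22Levels g22_valid m22_check _
        (by rwa [toFin.apply_symm_apply])⟩, ?_, ?_⟩
      · rw [toFin.apply_symm_apply]
      · rw [Subgroup.coe_inv, map_inv, toFin.apply_symm_apply]
    · refine ⟨1, ?_, ?_⟩ <;>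
        simp [List.getD_eq_getElem?_getD, List.getElem?_eq_none (Nat.le_of_not_lt hi),
          img_one, oneP]
  choose E hE hEi using elem (l := sylGens) (by decide +kernel) (by decide +kernel)
  choose F hF hFi using elem (l := fusElem) (by decide +kernel) (by decide +kernel)
  have cen : ∀ z ∈ σ.ker, ∀ w : Γ, w * z = z * w :=
    fun z hz w => Subgroup.mem_center_iff.1 (hσ.2.1 hz) w
  have hker : ∀ {u : Γ}, σ u = 1 → u ∈ σ.ker := fun h => MonoidHom.mem_ker.2 h
  -- the lifts
  choose l₀ hl₀ using fun i => hσ.1 (E i)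
  obtain ⟨cm, hcm⟩ : ∃ cm : Γ → Γ → Γ, cm = fun x y => x⁻¹ * y⁻¹ * x * y := ⟨_, rfl⟩
  obtain ⟨l3, h3⟩ : ∃ x, x = cm (l₀ 1) (l₀ 0) := ⟨_, rfl⟩
  obtain ⟨l4, h4⟩ : ∃ x, x = cm (l₀ 2) (l₀ 1) := ⟨_, rfl⟩
  obtain ⟨l5, h5⟩ : ∃ x, x = cm l3 (l₀ 2) := ⟨_, rfl⟩
  obtain ⟨l6, h6⟩ : ∃ x, x = cm l5 (l₀ 1) := ⟨_, rfl⟩
  obtain ⟨e, he⟩ : ∃ e : ℕ → Γ, e = fun i =>
      if i = 3 then l3 else if i = 4 then l4 else if i = 5 then l5 else if i = 6 then l6
      else if i < 3 then l₀ i else 1 := ⟨_, rfl⟩
  have hdef : ∀ {a b d : ℕ}, (mulP (sylGens.getD a (oneP 24)) (sylGens.getD b (oneP 24))).1 =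
      (mulP (sylGens.getD b (oneP 24)) (mulP (sylGens.getD a (oneP 24))
        (sylGens.getD d (oneP 24)))).1 → (E a)⁻¹ * (E b)⁻¹ * E a * E b = E d := by
    intro a b d h
    have h' : E a * E b = E b * (E a * E d) := grp_ext (by
      simp only [img_grp_mul, hE]; exact h)
    rw [mul_assoc, h']; group
  have hσe : ∀ i, σ (e i) = E i := by
    intro i
    rw [he]
    simp only
    have e3 : σ l3 = E 3 := by
      rw [h3, hcm]; simp only [map_mul, map_inv, hl₀]; exact hdef (by decide +kernel)
    have e4 : σ l4 = E 4 := by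
      rw [h4, hcm]; simp only [map_mul, map_inv, hl₀]; exact hdef (by decide +kernel)
    have e5 : σ l5 = E 5 := by
      rw [h5, hcm]; simp only [map_mul, map_inv, hl₀, e3]; exact hdef (by decide +kernel)
    have e6 : σ l6 = E 6 := by
      rw [h6, hcm]; simp only [map_mul, map_inv, hl₀, e5]; exact hdef (by decide +kernel)
    split_ifs with a b c d f
    · rw [a, e3]
    · rw [b, e4]
    · rw [c, e5]
    · rw [d, e6]
    · exact hl₀ i
    · rw [map_one]
      refine (grp_ext ?_).symm
      rw [img_grp_one, hE, List.getD_eq_getElem?_getD,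
        List.getElem?_eq_none (show sylGens.length ≤ i by
          show 7 ≤ i
          omega)]
      rfl
  have he7 : ∀ i, 7 ≤ i → e i = 1 := fun i hi => by
    rw [he]; simp only; split_ifs <;> first | rfl | omega
  have hword : ∀ w : List ℕ, img (toFin (σ (wval e w) : grp g22)) = (wordTab22 w).1 := by
    intro w
    induction w with
    | nil => rw [wval_nil, map_one, img_grp_one]; rfl
    | cons i w ih => rw [wval_cons, map_mul, img_grp_mul, hσe, hE, ih]; rfl
  -- the constants
  obtain ⟨cv, hcv⟩ : ∃ cv : ℕ → Γ, cv = fun p =>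
      ((if (relWords.getD p (7, 7, [])).1 = (relWords.getD p (7, 7, [])).2.1 then 1
        else e (relWords.getD p (7, 7, [])).2.1) * wval e (relWords.getD p (7, 7, [])).2.2)⁻¹ *
      (e (relWords.getD p (7, 7, [])).1 * e (relWords.getD p (7, 7, [])).2.1) := ⟨_, rfl⟩
  have hcv_ker : ∀ p, cv p ∈ σ.ker := by
    intro p
    refine hker ?_
    rw [hcv]
    simp only
    rw [map_mul, map_inv, inv_mul_eq_one]
    by_cases hp : p < relWords.length
    · have hall : ∀ r ∈ relWords,
          (wordTab22 ((if r.1 = r.2.1 then [] else [r.2.1]) ++ r.2.2)).1 =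
            (wordTab22 [r.1, r.2.1]).1 := by decide +kernel
      have := hall _ (List.getD_eq_getElem _ (7, 7, ([] : List ℕ)) hp ▸ List.getElem_mem hp)
      refine grp_ext ?_
      rw [show e (relWords.getD p (7, 7, [])).1 * e (relWords.getD p (7, 7, [])).2.1 =
        wval e [(relWords.getD p (7, 7, [])).1, (relWords.getD p (7, 7, [])).2.1] by simp [wval],
        show ∀ (q : Prop) [Decidable q] (b : ℕ) (w : List ℕ),
          (if q then 1 else e b) * wval e w = wval e ((if q then [] else [b]) ++ w) from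
          fun q _ b w => by split <;> simp [wval], hword, hword]
      exact this
    · rw [List.getD_eq_getElem?_getD, List.getElem?_eq_none (Nat.le_of_not_lt hp)]
      simp [he7 7 le_rfl, wval_nil]
  let c : ℕ → Subgroup.center Γ := fun p => ⟨cv p, hσ.2.1 (hcv_ker p)⟩
  have hrel : ∀ a b, b ≤ a → e a * e b =
      (if a = b then 1 else e b) * wval e (rel22 a b) * (c (idx22 a b) : Γ) := by
    intro a b hba
    show _ = _ * cv (idx22 a b)
    by_cases ha : a < 7
    · have hfacts : ∀ a : Fin 7, ∀ b : Fin 7, b ≤ a →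
          (relWords.getD (idx22 a b) (7, 7, [])) = (a.val, b.val, rel22 a b) := by decide +kernel
      have := hfacts ⟨a, ha⟩ ⟨b, hba.trans_lt ha⟩ hba
      rw [hcv]
      simp only [this]
      rw [mul_inv_cancel_left]
    · have hne : ∀ r ∈ relWords, ¬ (r.1 == a && r.2.1 == b) = true := fun r hr h => by
        have hlt : ∀ r ∈ relWords, r.1 < 7 := by decide +kernel
        simp only [Bool.and_eq_true, beq_iff_eq] at h
        exact ha (h.1 ▸ hlt r hr)
      have hrl : rel22 a b = if a = b then [] else [a] := by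
        rw [rel22, List.find?_eq_none.2 hne]; rfl
      have hix : relWords.getD (idx22 a b) (7, 7, []) = (7, 7, []) := by
        rw [idx22, List.findIdx_eq_length_of_false (fun r hr => by simpa using hne r hr),
          List.getD_eq_getElem?_getD, List.getElem?_eq_none le_rfl]
        rfl
      rw [hcv]
      simp only [hix, hrl, he7 a (Nat.le_of_not_lt ha), he7 7 le_rfl]
      split_ifs with h
      · subst h; simp [he7 a (Nat.le_of_not_lt ha), wval_nil]
      · simp [wval, he7 a (Nat.le_of_not_lt ha)]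
  have hcoll : ∀ w, wval e w = wval e (coll22 w).1 * cval c (coll22 w).2 :=
    fun w => wval_coll hrel 80 w
  -- the equations
  have heq : ∀ q ∈ eqLists, cval c q.1 = cval c q.2 := by
    intro q hq
    rw [eqLists, List.mem_append, List.mem_append] at hq
    rcases hq with (hq | hq) | hq
    · obtain ⟨t, ht, rfl⟩ := List.mem_map.1 hq
      have hcons : ∀ t ∈ consWords,
          (coll22 (t.1 :: (coll22 [t.2.1, t.2.2]).1)).1 = (coll22 [t.1, t.2.1, t.2.2]).1 := by
        decide +kernel
      have h := hcoll [t.1, t.2.1, t.2.2]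
      conv_lhs at h => rw [wval_cons, hcoll [t.2.1, t.2.2], ← mul_assoc, ← wval_cons,
        hcoll (t.1 :: _), hcons t ht, mul_assoc]
      refine (mul_left_cancel h).symm.trans ?_
      rw [cval_append, cval_comm]
    · obtain ⟨q', hq', rfl⟩ := List.mem_map.1 hq
      simp only [cval, List.map_cons, List.map_nil, List.prod_cons, List.prod_nil, mul_one,
        OneMemClass.coe_one]
      have key : ∀ a b : ℕ, b < a → (h : e a * e b = e b * wval e (rel22 a b)) →
          (c (idx22 a b) : Γ) = 1 := by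
        intro a b hba h
        have := hrel a b hba.le
        rw [if_neg (Nat.ne_of_gt hba), h] at this
        exact mul_eq_left.1 this.symm
      have hd : ∀ q ∈ defEqs, q ∈ [(1, 0), (2, 1), (3, 2), (5, 1)] := by decide +kernel
      have heq' : ∀ {a b d : ℕ}, rel22 a b = [a, d] → e d = cm (e a) (e b) →
          e a * e b = e b * wval e (rel22 a b) := by
        intro a b d hw hd
        rw [hw, wval_cons, wval_cons, wval_nil, hd, hcm]; group
      have es : e 3 = l3 ∧ e 4 = l4 ∧ e 5 = l5 ∧ e 6 = l6 ∧ e 0 = l₀ 0 ∧ e 1 = l₀ 1 ∧ e 2 = l₀ 2 := by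
        rw [he]; exact ⟨rfl, rfl, rfl, rfl, rfl, rfl, rfl⟩
      obtain ⟨s3, s4, s5, s6, s0, s1, s2⟩ := es
      have hm := hd q' hq'
      simp only [List.mem_cons, List.not_mem_nil, or_false] at hm
      rcases hm with rfl | rfl | rfl | rfl
      · exact key 1 0 (by decide) (heq' (d := 3) (by decide +kernel) (by rw [s3, s1, s0, h3]))
      · exact key 2 1 (by decide) (heq' (d := 4) (by decide +kernel) (by rw [s4, s2, s1, h4]))
      · exact key 3 2 (by decide) (heq' (d := 5) (by decide +kernel) (by rw [s5, s3, s2, h5]))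
      · exact key 5 1 (by decide) (heq' (d := 6) (by decide +kernel) (by rw [s6, s5, s1, h6]))
    · obtain ⟨i, hi, rfl⟩ := List.getElem_of_mem hq
      rw [List.getElem_map]
      rw [List.length_map] at hi
      have hnf : ∀ q ∈ fusWords, (coll22 (q.1 ++ q.2.1)).1 = (coll22 (q.2.1 ++ q.1)).1 ∧
          (coll22 (q.2.2.1 ++ q.2.2.2)).1 = (coll22 (q.2.2.2 ++ q.2.2.1)).1 := by decide +kernel
      obtain ⟨n1, n2⟩ := hnf _ (List.getElem_mem hi)
      have himg : ∀ j : Fin fusWords.length,
          mulL (mulL (fusElem.getD j (oneP 24)).1 (wordTab22 (fusWords.getD j ([], [], [], [])).1).1)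
              (fusElem.getD j (oneP 24)).2 = (wordTab22 (fusWords.getD j ([], [], [], [])).2.2.1).1 ∧
          mulL (mulL (fusElem.getD j (oneP 24)).1 (wordTab22 (fusWords.getD j ([], [], [], [])).2.1).1)
              (fusElem.getD j (oneP 24)).2 = (wordTab22 (fusWords.getD j ([], [], [], [])).2.2.2).1 := by

        decide +kernel
      obtain ⟨i1, i2⟩ := himg ⟨i, hi⟩
      simp only [List.getD_eq_getElem _ _ hi] at i1 i2
      generalize fusWords[i] = q at n1 n2 i1 i2 ⊢
      obtain ⟨γ, hγ⟩ := hσ.1 (F i)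
      have img' : ∀ {w w' : List ℕ},
          mulL (mulL (fusElem.getD i (oneP 24)).1 (wordTab22 w).1) (fusElem.getD i (oneP 24)).2 =
            (wordTab22 w').1 →
          (wval e w')⁻¹ * (γ * wval e w * γ⁻¹) ∈ σ.ker := by
        intro w w' h
        refine hker ?_
        rw [map_mul, map_inv, inv_mul_eq_one, map_mul, map_mul, map_inv, hγ]
        exact grp_ext (by simp only [img_grp_mul, hword, hF, hFi]; exact h.symm)
      obtain ⟨p, hp, eX⟩ : ∃ p ∈ σ.ker, γ * wval e q.1 * γ⁻¹ = wval e q.2.2.1 * p :=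
        ⟨_, img' i1, (mul_inv_cancel_left _ _).symm⟩
      obtain ⟨r, hr, eY⟩ : ∃ r ∈ σ.ker, γ * wval e q.2.1 * γ⁻¹ = wval e q.2.2.2 * r :=
        ⟨_, img' i2, (mul_inv_cancel_left _ _).symm⟩
      have e1 : wval e q.1 * wval e q.2.1 * cval c (coll22 (q.2.1 ++ q.1)).2 =
          wval e q.2.1 * wval e q.1 * cval c (coll22 (q.1 ++ q.2.1)).2 := by
        rw [← wval_append, ← wval_append, hcoll (q.1 ++ q.2.1), hcoll (q.2.1 ++ q.1), n1,
          mul_assoc, mul_assoc, cval_comm _ (cval c (coll22 (q.2.1 ++ q.1)).2)]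
      have e2 : wval e q.2.2.1 * wval e q.2.2.2 * cval c (coll22 (q.2.2.2 ++ q.2.2.1)).2 =
          wval e q.2.2.2 * wval e q.2.2.1 * cval c (coll22 (q.2.2.1 ++ q.2.2.2)).2 := by
        rw [← wval_append, ← wval_append, hcoll (q.2.2.1 ++ q.2.2.2), hcoll (q.2.2.2 ++ q.2.2.1), n2,
          mul_assoc, mul_assoc, cval_comm _ (cval c (coll22 (q.2.2.2 ++ q.2.2.1)).2)]
      set Z1 := cval c (coll22 (q.1 ++ q.2.1)).2
      set Z2 := cval c (coll22 (q.2.1 ++ q.1)).2
      set Z3 := cval c (coll22 (q.2.2.1 ++ q.2.2.2)).2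
      set Z4 := cval c (coll22 (q.2.2.2 ++ q.2.2.1)).2
      have k1 : ∀ x, x * Z1 = Z1 * x := fun x => (cval_comm _ x).symm
      have k2 : ∀ x, x * Z2 = Z2 * x := fun x => (cval_comm _ x).symm
      have e1' := congrArg (fun x => γ * x * γ⁻¹) e1
      rw [show γ * (wval e q.1 * wval e q.2.1 * Z2) * γ⁻¹ =
          (γ * wval e q.1 * γ⁻¹) * (γ * wval e q.2.1 * γ⁻¹) * (γ * Z2 * γ⁻¹) by group,
        show γ * (wval e q.2.1 * wval e q.1 * Z1) * γ⁻¹ =
          (γ * wval e q.2.1 * γ⁻¹) * (γ * wval e q.1 * γ⁻¹) * (γ * Z1 * γ⁻¹) by group,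
        k2 γ, mul_inv_cancel_right, k1 γ, mul_inv_cancel_right, eX, eY] at e1'
      have comm2 : ∀ (x y : Γ), x * p * (y * r) = x * y * (p * r) := fun x y => by
        calc x * p * (y * r) = x * (p * y) * r := by group
          _ = x * (y * p) * r := by rw [cen p hp y]
          _ = _ := by group
      have comm3 : ∀ (x y : Γ), x * r * (y * p) = x * y * (p * r) := fun x y => by
        calc x * r * (y * p) = x * (r * y) * p := by group
          _ = x * (y * r) * p := by rw [cen r hr y]
          _ = x * y * (r * p) := by group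
          _ = _ := by rw [cen p hp r]
      rw [comm2, comm3] at e1'
      have hpr := cen _ (mul_mem hp hr)
      have e3 : wval e q.2.2.2 * wval e q.2.2.1 * (Z1 * Z4) =
          wval e q.2.2.2 * wval e q.2.2.1 * (Z2 * Z3) := by
        have h4 : wval e q.2.2.1 * wval e q.2.2.2 * Z2 =
            wval e q.2.2.2 * wval e q.2.2.1 * Z1 := by
          refine mul_right_cancel (b := p * r) ?_
          rw [mul_assoc, hpr, ← mul_assoc, e1', mul_assoc, ← hpr, ← mul_assoc]
        rw [← mul_assoc, ← h4, mul_assoc _ Z2 Z4, ← k2 Z4, ← mul_assoc, e2, mul_assoc, k2 Z3]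
      rw [cval_append, cval_append]
      exact mul_left_cancel e3
  -- integral combinations
  let a : ℕ → Additive (Subgroup.center Γ) := fun p => Additive.ofMul (c p)
  have hzero : ∀ q ∈ eqLists, ∑ p ∈ Finset.range 28, eqVec q p • a p = 0 := by
    intro q hq
    have h : ((q.1.map a).sum : Additive (Subgroup.center Γ)) = (q.2.map a).sum := by
      have hc : (q.1.map c).prod = (q.2.map c).prod := Subtype.ext (heq q hq)
      have key : ∀ l : List ℕ, (l.map a).sum = Additive.ofMul (l.map c).prod := fun l => by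
        induction l with
        | nil => rfl
        | cons x l ih => rw [List.map_cons, List.sum_cons, ih, List.map_cons, List.prod_cons]; rfl
      rw [key, key, hc]
    obtain ⟨r1, r2⟩ := eq_range q hq
    rw [sum_map_count a 28 _ r1, sum_map_count a 28 _ r2, ← sub_eq_zero, ← Finset.sum_sub_distrib] at h
    simpa only [eqVec, sub_smul] using h
  have hcombo : ∀ coef : List ℤ, ∑ p ∈ Finset.range 28, comboVec coef p • a p = 0 := by
    intro coef
    have key : ∀ ks : List ℕ, (∀ k ∈ ks, k < eqLists.length) → ∑ p ∈ Finset.range 28,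
        ((ks.map fun k => coef.getD k 0 * eqVec (eqLists.getD k ([], [])) p).sum) • a p = 0 := by
      intro ks hks
      induction ks with
      | nil => simp
      | cons k ks ih =>
        simp only [List.map_cons, List.sum_cons, add_smul, Finset.sum_add_distrib]
        rw [ih fun j hj => hks j (List.mem_cons_of_mem _ hj), add_zero]
        simp only [mul_smul, ← Finset.smul_sum]
        rw [List.getD_eq_getElem _ _ (hks k List.mem_cons_self),
          hzero _ (List.getElem_mem _), smul_zero]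
    exact key _ fun k hk => List.mem_range.1 hk
  have htop4 : (c topIdx : Γ) ^ 4 = 1 := by
    have h := hcombo topCert
    rw [Finset.sum_congr rfl fun p hp => by rw [topCert_ok p (Finset.mem_range.1 hp)]] at h
    simp only [ite_smul, zero_smul, Finset.sum_ite_eq'] at h
    rw [if_pos (Finset.mem_range.2 (by decide))] at h
    have h' : ((Additive.toMul ((4 : ℤ) • a topIdx) : Subgroup.center Γ) : Γ) = 1 := by rw [h]; rfl
    simpa [a] using h'
  let B := Subgroup.zpowers (c topIdx : Γ)
  have hB : ∀ p < 28, p ∉ freeIdx → (c p : Γ) ∈ B := by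
    intro p hp hf
    obtain ⟨q, hq, rfl⟩ := List.mem_map.1 ((constCert_all p hp).resolve_left hf)
    have h := hcombo q.2.2
    rw [Finset.sum_congr rfl fun r hr => by
      rw [constCert_ok q hq r (Finset.mem_range.1 hr), sub_smul, mul_smul],
      Finset.sum_sub_distrib, ← Finset.smul_sum] at h
    simp only [ite_smul, one_smul, zero_smul, Finset.sum_ite_eq', Finset.mem_range.2 hp, if_true,
      show topIdx ∈ Finset.range 28 from Finset.mem_range.2 (by decide), sub_eq_zero] at h
    have h' : c q.1 = c topIdx ^ (q.2.1 : ℤ) := Additive.ofMul.injective (h.trans (ofMul_zpow _ _).symm)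
    rw [h', Subgroup.coe_zpow]
    exact ⟨_, rfl⟩
  have hBl : ∀ l : List ℕ, (∀ x ∈ l, x < 28 ∧ x ∉ freeIdx) → cval c l ∈ B := by
    intro l hl
    induction l with
    | nil => rw [cval_nil]; exact one_mem _
    | cons x l ih =>
      rw [show x :: l = [x] ++ l from rfl, cval_append]
      refine mul_mem ?_ (ih fun y hy => hl y (List.mem_cons_of_mem _ hy))
      simpa [cval] using hB x (hl x List.mem_cons_self).1 (hl x List.mem_cons_self).2
  have hBk : B ≤ σ.ker := by rw [Subgroup.zpowers_le]; exact hcv_ker _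
  -- the derived part
  let N := Subgroup.closure ({x | ∃ d ∈ [3, 4, 5, 6], e d = x} ∪ (B : Set Γ))
  have hNd : ∀ d ∈ [3, 4, 5, 6], e d ∈ N := fun d hd => Subgroup.subset_closure (Or.inl ⟨d, hd, rfl⟩)
  have hNB : B ≤ N := fun x hx => Subgroup.subset_closure (Or.inr hx)
  have hNform : ∀ x ∈ N, ∃ w ∈ dWords, ∃ z ∈ B, x = wval e w * z := by
    intro x hx
    rw [← Subgroup.mem_toSubmonoid, Subgroup.closure_toSubmonoid_of_finite] at hx
    have key : ∀ w ∈ dWords, ∀ z ∈ B, ∃ w' ∈ dWords, ∃ z' ∈ B, x * (wval e w * z) = wval e w' * z' := by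
      induction hx using Submonoid.closure_induction with
      | mem s hs =>
        intro w hw z hz
        rcases hs with ⟨d, hd, rfl⟩ | hs
        · obtain ⟨h1, h2⟩ := dClosed d hd w hw
          refine ⟨_, h1, cval c (coll22 (d :: w)).2 * z, mul_mem (hBl _ h2) hz, ?_⟩
          rw [← mul_assoc, ← wval_cons, hcoll (d :: w), mul_assoc]
        · refine ⟨w, hw, s * z, mul_mem hs hz, ?_⟩
          rw [← mul_assoc, ← cen s (hBk hs) (wval e w), mul_assoc]
      | one => exact fun w hw z hz => ⟨w, hw, z, hz, one_mul _⟩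
      | mul y y' _ _ ih ih' =>
        intro w hw z hz
        obtain ⟨w₁, hw₁, z₁, hz₁, e₁⟩ := ih' w hw z hz
        obtain ⟨w₂, hw₂, z₂, hz₂, e₂⟩ := ih w₁ hw₁ z₁ hz₁
        exact ⟨w₂, hw₂, z₂, hz₂, by rw [mul_assoc, e₁, e₂]⟩
    obtain ⟨w, hw, z, hz, h⟩ := key [] (by decide +kernel) 1 (one_mem _)
    exact ⟨w, hw, z, hz, by rwa [wval_nil, one_mul, mul_one] at h⟩
  have hNker : σ.ker ⊓ N ≤ B := by
    rintro x ⟨hx1, hx2⟩
    obtain ⟨w, hw, z, hz, rfl⟩ := hNform x hx2
    have h1 : σ (wval e w) = 1 := by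
      have : σ (wval e w * z) = 1 := hx1
      rwa [map_mul, show σ z = 1 from hBk hz, mul_one] at this
    rw [dKernel w hw (by rw [← hword, h1, img_grp_one]), wval_nil, one_mul]
    exact hz
  -- commutators of the lifts
  have hlt : ∀ a b : ℕ, b < a → a < 7 → (e a)⁻¹ * (e b)⁻¹ * e a * e b ∈ N := by
    intro a b hba ha
    obtain ⟨⟨ht, hh⟩, hne, hi, hf⟩ := pairShape ⟨a, ha⟩ ⟨b, hba.trans ha⟩ hba
    simp only at ht hh hne hi hf
    have hr := hrel a b hba.le
    rw [if_neg (Nat.ne_of_gt hba)] at hr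
    obtain ⟨h0, t, hw⟩ := List.exists_cons_of_ne_nil hne
    rw [hw, List.tail_cons] at ht
    rw [hw] at hh
    simp only [List.headD_cons] at hh
    have heq1 : (e a)⁻¹ * (e b)⁻¹ * e a * e b = (e a)⁻¹ * e h0 * wval e t * (c (idx22 a b) : Γ) := by
      rw [mul_assoc ((e a)⁻¹ * (e b)⁻¹), hr, hw, wval_cons]; group
    rw [heq1]
    refine mul_mem (mul_mem ?_ (Subgroup.list_prod_mem _ fun y hy => ?_)) (hNB (hB _ hi hf))
    · rcases hh with h | ⟨h, h3⟩
      · rw [h, inv_mul_cancel]; exact one_mem _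
      · refine mul_mem (inv_mem (hNd a ?_)) (hNd _ h)
        simp only [List.mem_cons, List.not_mem_nil, or_false]
        omega
    · obtain ⟨x, hx, rfl⟩ := List.mem_map.1 hy
      exact hNd x (ht x hx)
  have hpair : ∀ a b : ℕ, a < 7 → b < 7 → (e a)⁻¹ * (e b)⁻¹ * e a * e b ∈ N := by
    intro a b ha hb
    rcases lt_trichotomy b a with h | rfl | h
    · exact hlt a b h ha
    · rw [show (e b)⁻¹ * (e b)⁻¹ * e b * e b = 1 by group]; exact one_mem _
    · rw [show (e a)⁻¹ * (e b)⁻¹ * e a * e b = ((e b)⁻¹ * (e a)⁻¹ * e b * e a)⁻¹ by group]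
      exact inv_mem (hlt b a h hb)
  -- the group of the lifts
  let S : Set Γ := {x | ∃ i, i < 7 ∧ e i = x} ∪ (σ.ker : Set Γ)
  have hnorm : ∀ g ∈ Subgroup.closure S, ∀ n ∈ N, g * n * g⁻¹ ∈ N := by
    have hgen : ∀ g ∈ S, ∀ n ∈ N, g⁻¹ * n * g ∈ N := by
      intro g hg n hn
      induction hn using Subgroup.closure_induction with
      | mem x hx =>
        rcases hg with ⟨j, hj, rfl⟩ | hg
        · rcases hx with ⟨d, hd, rfl⟩ | hx
          · have hd7 : d < 7 := by
              simp only [List.mem_cons, List.not_mem_nil, or_false] at hd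
              omega
            rw [show (e j)⁻¹ * e d * e j = e d * ((e d)⁻¹ * (e j)⁻¹ * e d * e j) by group]
            exact mul_mem (hNd d hd) (hpair d j hd7 hj)
          · rw [cen x (hBk hx) (e j)⁻¹, mul_assoc, inv_mul_cancel, mul_one]
            exact hNB hx
        · rw [mul_assoc, cen g hg x, ← mul_assoc, inv_mul_cancel, one_mul]
          exact Subgroup.subset_closure hx
      | one => rw [mul_one, inv_mul_cancel]; exact one_mem _
      | mul x y _ _ ih1 ih2 =>
        rw [show g⁻¹ * (x * y) * g = g⁻¹ * x * g * (g⁻¹ * y * g) by group]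
        exact mul_mem ih1 ih2
      | inv x _ ih =>
        rw [show g⁻¹ * x⁻¹ * g = (g⁻¹ * x * g)⁻¹ by group]
        exact inv_mem ih
    have hall : ∀ g ∈ Subgroup.closure S, ∀ n ∈ N, g⁻¹ * n * g ∈ N := by
      intro g hg
      rw [← Subgroup.mem_toSubmonoid, Subgroup.closure_toSubmonoid_of_finite] at hg
      induction hg using Submonoid.closure_induction with
      | mem x hx => exact hgen x hx
      | one => simp
      | mul x y _ _ ih1 ih2 =>
        intro n hn
        rw [show (x * y)⁻¹ * n * (x * y) = y⁻¹ * (x⁻¹ * n * x) * y by group]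
        exact ih2 _ (ih1 n hn)
    intro g hg n hn
    simpa using hall g⁻¹ (inv_mem hg) n hn
  have hcomm : ∀ g ∈ Subgroup.closure S, ∀ h ∈ Subgroup.closure S, ⁅g, h⁆ ∈ N := by
    have hgg : ∀ g ∈ S, ∀ h ∈ S, ⁅g, h⁆ ∈ N := by
      intro g hg h hh
      rcases hg with ⟨i, hi, rfl⟩ | hg
      · rcases hh with ⟨j, hj, rfl⟩ | hh
        · rw [show ⁅e i, e j⁆ = (e j * e i) * ((e i)⁻¹ * (e j)⁻¹ * e i * e j) * (e j * e i)⁻¹ by
            simp only [commutatorElement_def]; group]
          exact hnorm _ (mul_mem (Subgroup.subset_closure (Or.inl ⟨j, hj, rfl⟩))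
            (Subgroup.subset_closure (Or.inl ⟨i, hi, rfl⟩))) _ (hpair i j hi hj)
        · rw [commutatorElement_eq_one_iff_mul_comm.2 (cen h hh (e i))]; exact one_mem _
      · rw [commutatorElement_eq_one_iff_mul_comm.2 (cen g hg h).symm]; exact one_mem _
    have h1 : ∀ g ∈ Subgroup.closure S, ∀ h ∈ S, ⁅g, h⁆ ∈ N := by
      intro g hg
      have hg' := hg
      rw [← Subgroup.mem_toSubmonoid, Subgroup.closure_toSubmonoid_of_finite] at hg'
      induction hg' using Submonoid.closure_induction with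
      | mem x hx => exact hgg x hx
      | one => exact fun h _ => by simp
      | mul x y hx hy ihx ihy =>
        intro h hh
        have hx' : x ∈ Subgroup.closure S := by
          rw [← Subgroup.mem_toSubmonoid, Subgroup.closure_toSubmonoid_of_finite]; exact hx
        have hy' : y ∈ Subgroup.closure S := by
          rw [← Subgroup.mem_toSubmonoid, Subgroup.closure_toSubmonoid_of_finite]; exact hy
        rw [show ⁅x * y, h⁆ = x * ⁅y, h⁆ * x⁻¹ * ⁅x, h⁆ by simp only [commutatorElement_def]; group]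
        exact mul_mem (hnorm x hx' _ (ihy hy' h hh)) (ihx hx' h hh)
    intro g hg h hh
    have hh' := hh
    rw [← Subgroup.mem_toSubmonoid, Subgroup.closure_toSubmonoid_of_finite] at hh'
    induction hh' using Submonoid.closure_induction with
    | mem x hx => exact h1 g hg x hx
    | one => simp
    | mul x y hx hy ihx ihy =>
      have hx' : x ∈ Subgroup.closure S := by
        rw [← Subgroup.mem_toSubmonoid, Subgroup.closure_toSubmonoid_of_finite]; exact hx
      have hy' : y ∈ Subgroup.closure S := by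
        rw [← Subgroup.mem_toSubmonoid, Subgroup.closure_toSubmonoid_of_finite]; exact hy
      rw [show ⁅g, x * y⁆ = ⁅g, x⁆ * (x * ⁅g, y⁆ * x⁻¹) by simp only [commutatorElement_def]; group]
      exact mul_mem (ihx hx') (hnorm x hx' _ (ihy hy'))
  -- the Sylow subgroup
  let H := Subgroup.closure (Set.range fun i : Fin 7 => E i)
  have hH : Nat.card H = 128 := by
    have hv : sylGens.all (validB 24) = true := by decide +kernel
    have hHeq : H.map (grp g22).subtype = grp sylGens := by
      apply le_antisymm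
      · rw [Subgroup.map_le_iff_le_comap, Subgroup.closure_le]
        rintro _ ⟨i, rfl⟩
        show (E i : Equiv.Perm GolayPt) ∈ grp sylGens
        have hlen : ∀ i : Fin 7, sift 24 (chain 24 sylLevels sylGens) (sylGens.getD i (oneP 24)).1 =
            true := by decide +kernel
        exact mem_grp_of_sift sylLevels hv syl_check _ (by rw [hE]; exact hlen i)
      · refine grp_le hv fun a ha g hg => ?_
        obtain ⟨i, hi, rfl⟩ := List.getElem_of_mem ha
        refine ⟨E i, Subgroup.subset_closure ⟨⟨i, hi⟩, rfl⟩, toFin.injective (img_injective ?_)⟩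
        show img (toFin (E i : Equiv.Perm GolayPt)) = img (toFin g)
        rw [hE, hg, List.getD_eq_getElem _ _ hi]
    rw [← Subgroup.card_map_of_injective (K := H) (f := (grp g22).subtype) Subtype.val_injective,
      hHeq, card_grp _ hv syl_check]
    decide +kernel
  have hfac : (443520 : ℕ).factorization 2 = 7 := by
    have h : (2 ^ 7 * 3465 : ℕ).factorization 2 = 7 := by
      rw [Nat.factorization_mul (pow_ne_zero _ (by norm_num)) (by norm_num),
        Finsupp.add_apply, Nat.Prime.factorization_pow Nat.prime_two,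
        Nat.factorization_eq_zero_of_not_dvd (show ¬ 2 ∣ 3465 by norm_num)]
      simp
    exact h
  let Q : Sylow 2 (grp g22) := Sylow.ofCard H (by rw [hH, card_g22, hfac]; rfl)
  obtain ⟨P, hP⟩ := Sylow.mapSurjective_surjective hσ.1 2 Q
  refine ⟨P, ?_⟩
  have hPS : (P : Subgroup Γ) ≤ Subgroup.closure S := by
    intro x hx
    have hmem : σ x ∈ H := by
      have h1 : σ x ∈ (P : Subgroup Γ).map σ := Subgroup.mem_map_of_mem σ hx
      have h2 : ((P.mapSurjective hσ.1 : Sylow 2 (grp g22)) : Subgroup (grp g22)) = H := by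
        rw [hP]; rfl
      rw [Sylow.coe_mapSurjective] at h2
      rwa [h2] at h1
    have hle : H ≤ (Subgroup.closure S).map σ := by
      rw [Subgroup.closure_le]
      rintro _ ⟨i, rfl⟩
      exact ⟨e i, Subgroup.subset_closure (Or.inl ⟨i, i.isLt, rfl⟩), hσe i⟩
    obtain ⟨y, hy, hxy⟩ := hle hmem
    rw [← mul_inv_cancel_left y x]
    exact mul_mem hy (Subgroup.subset_closure (Or.inr (hker (by
      rw [map_mul, map_inv, hxy, inv_mul_cancel]))))
  have hsub : (σ.ker ⊓ ⁅(P : Subgroup Γ), (P : Subgroup Γ)⁆ : Subgroup Γ) ≤ B := by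
    refine (inf_le_inf_left _ ?_).trans hNker
    rw [Subgroup.commutator_le]
    exact fun g hg h hh => hcomm g (hPS hg) h (hPS hh)
  refine (Subgroup.card_dvd_of_le hsub).trans ?_
  rw [Nat.card_zpowers]
  exact orderOf_dvd_of_pow_eq_one htop4

end Cfsg.Agent.H10.M22Mult
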